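import Mathlib
import Cfsg.Agent.H57.BG129Defs
import Cfsg.Agent.H63.Sig
import Cfsg.Agent.H25.CycSub

set_option autoImplicit false

/-!
# Bender–Glauberman: a `σ(M)`-subgroup whose normalizer lies in another maximal subgroup (S1424)

`bgEmbed : St1404 G → St1420c G → St1424 G` (helper76).
-/

namespace Cfsg.Agent.H76.BG12

open Cfsg Subgroup Cfsg.Agent.H58.BG10 Cfsg.Agent.H57.BG12 Cfsg.Agent.H63.Sig
open scoped Pointwise

universe u

variable {G : Type u} [Group G]

/-- S1424 as a `Prop`. -/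
def St1424 (G : Type u) [Group G] : Prop :=
  ∀ (M : Subgroup G), IsCoatom M → ∀ (q : ℕ) [Fact q.Prime], q ∈ sigma M →
    ∀ X : Subgroup G, IsPGroup q X → X ≠ ⊥ → X ≤ M →
    ∀ Mstar : Subgroup G, IsCoatom Mstar → Mstar ≠ M → normalizer (X : Set G) ≤ Mstar →
    ∀ S : Sylow q ↥(M ⊓ Mstar), X ≤ (S : Subgroup ↥(M ⊓ Mstar)).map (M ⊓ Mstar).subtype →
    (∀ g : G, Mstar ≠ M.map (MulAut.conj g).toMonoidHom) ∧
      normalizer (((S : Subgroup ↥(M ⊓ Mstar)).map (M ⊓ Mstar).subtype : Subgroup G) : Set G) ≤ M ∧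
      ¬ q ∣ ((S : Subgroup ↥(M ⊓ Mstar)).map (M ⊓ Mstar).subtype).relIndex Mstar

/-- If `g⁻¹ = m * c` with `m ∈ M` then `g M g⁻¹ = c⁻¹ M c`. -/
theorem cj_of_decomp {M : Subgroup G} {g m c : G} (hm : m ∈ M) (h : g⁻¹ = m * c) :
    MulAut.conj g • M = MulAut.conj c⁻¹ • M := by
  have hg : g = c⁻¹ * m⁻¹ := by
    rw [← inv_inv g, h, mul_inv_rev]
  rw [hg, cj_mul, cj_eq_self_of_mem (inv_mem hm)]

/-- A subgroup of a cyclic subgroup `S` is normalized by the normalizer of `S`. -/
theorem normalizer_le_of_cyclic [Finite G] {S X : Subgroup G} (hS : IsCyclic S) (hXS : X ≤ S) :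
    normalizer (S : Set G) ≤ normalizer (X : Set G) := by
  intro n hn
  apply mem_normalizer_of_cj_eq
  have h1 : MulAut.conj n • X ≤ S := by
    have := cj_mono n hXS
    rwa [cj_eq_self_of_mem_normalizer hn] at this
  have h2 : Nat.card (MulAut.conj n • X : Subgroup G) = Nat.card X := card_cj n X
  have h3 : (MulAut.conj n • X : Subgroup G).subgroupOf S = X.subgroupOf S := by
    apply Cfsg.Agent.H25.cyclic_subgroup_eq_of_card_eq hS
    rw [Nat.card_congr (Subgroup.subgroupOfEquivOfLe h1).toEquiv,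
      Nat.card_congr (Subgroup.subgroupOfEquivOfLe hXS).toEquiv, h2]
  have h4 := congrArg (Subgroup.map S.subtype) h3
  rwa [Subgroup.map_subgroupOf_eq_of_le h1, Subgroup.map_subgroupOf_eq_of_le hXS] at h4

/-- Sylow subgroups of `M` have their normalizer in `M` when `q ∈ σ(M)`. -/
theorem normalizer_le_of_sigma [Finite G] {M : Subgroup G} {q : ℕ} [Fact q.Prime]
    (hq : q ∈ sigma M) (T : Sylow q G) (hTM : (T : Subgroup G) ≤ M) :
    normalizer ((T : Subgroup G) : Set G) ≤ M := by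
  obtain ⟨_, _, P0, hN⟩ := hq
  obtain ⟨T0, hT0⟩ := Cfsg.Agent.H31.BG8.sylow_of_normalizer_le P0 hN
  have hT0M : (T0 : Subgroup G) ≤ M := by rw [hT0]; exact Subgroup.map_subtype_le _
  -- `T` and `T0` are conjugate in `M`
  obtain ⟨m, hm⟩ := MulAction.exists_smul_eq M (T0.subtype hT0M) (T.subtype hTM)
  have h1 : (T : Subgroup G) = MulAut.conj (m : G) • (T0 : Subgroup G) := by
    have h2 := congrArg (fun Q : Sylow q M => (Q : Subgroup M).map M.subtype) hm
    simp only [Sylow.coe_subgroup_smul, Sylow.coe_subtype] at h2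
    rw [Subgroup.map_subgroupOf_eq_of_le hTM] at h2
    rw [← h2]
    ext x
    simp only [Subgroup.mem_map, Subgroup.mem_pointwise_smul_iff_inv_smul_mem,
      Subgroup.mem_subgroupOf, MulAut.smul_def]
    constructor
    · rintro ⟨y, hy, rfl⟩
      simpa [MulAut.conj_apply, mul_assoc] using hy
    · intro hx
      refine ⟨⟨x, ?_⟩, ?_, rfl⟩
      · have : (MulAut.conj (m : G))⁻¹ x ∈ M := hT0M hx
        have h3 : x = (m : G) * ((MulAut.conj (m : G))⁻¹ x) * (m : G)⁻¹ := by
          simp [mul_assoc]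
        rw [h3]
        exact mul_mem (mul_mem m.2 this) (inv_mem m.2)
      · simpa [mul_assoc] using hx
  intro n hn
  have hN0 : normalizer ((T0 : Subgroup G) : Set G) ≤ M := by rw [hT0]; exact hN
  have h2 : (m : G)⁻¹ * n * (m : G) ∈ normalizer ((T0 : Subgroup G) : Set G) := by
    apply mem_normalizer_of_cj_eq
    rw [cj_mul, cj_mul]
    have : MulAut.conj n • (MulAut.conj (m : G) • (T0 : Subgroup G)) =
        MulAut.conj (m : G) • (T0 : Subgroup G) := by
      rw [← h1]; exact cj_eq_self_of_mem_normalizer hn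
    rw [this, cj_inv_cj]
  have h3 := hN0 h2
  have h4 : n = (m : G) * ((m : G)⁻¹ * n * (m : G)) * (m : G)⁻¹ := by group
  rw [h4]
  exact mul_mem (mul_mem m.2 h3) (inv_mem m.2)

/-- **S1424** from B&G 10.1 (S1404) and the third part of B&G 12.9 (S1420). -/
theorem bgEmbed [Finite G] (h04 : St1404 G) (h20c : St1420c G) : St1424 G := by
  intro M hM q _ hq X hXq hX1 hXM Mstar hMs hne hNX S hXS
  set S' : Subgroup G := (S : Subgroup ↥(M ⊓ Mstar)).map (M ⊓ Mstar).subtype with hS'def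
  have hS'le : S' ≤ M ⊓ Mstar := Subgroup.map_subtype_le _
  have hS'M : S' ≤ M := hS'le.trans inf_le_left
  have hS'Ms : S' ≤ Mstar := hS'le.trans inf_le_right
  have hS'q : IsPGroup q S' := S.isPGroup'.map _
  have hS'ne : S' ≠ ⊥ := fun h => hX1 (le_bot_iff.mp (h ▸ hXS))
  have hmax : ∀ U : Subgroup G, IsPGroup q U → U ≤ M ⊓ Mstar → S' ≤ U → U = S' := by
    intro U hU hUle hSU
    have h1 : IsPGroup q (U.subgroupOf (M ⊓ Mstar)) :=
      hU.comap_of_injective _ (Subgroup.subtype_injective _)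
    have h2 : (S : Subgroup ↥(M ⊓ Mstar)) ≤ U.subgroupOf (M ⊓ Mstar) := by
      intro x hx
      rw [Subgroup.mem_subgroupOf]
      exact hSU (Subgroup.mem_map_of_mem _ hx)
    have h3 := S.is_maximal' h1 h2
    rw [hS'def, ← h3, Subgroup.map_subgroupOf_eq_of_le hUle]
  have hCX : centralizer (X : Set G) ≤ Mstar := (Subgroup.centralizer_le_normalizer _).trans hNX
  have hCS : centralizer (S' : Set G) ≤ Mstar := (Subgroup.centralizer_le hXS).trans hCX
  have hXMs : X ≤ Mstar := Subgroup.le_normalizer.trans hNX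
  -- a Sylow subgroup of `G` inside `M`
  obtain ⟨Q, hQM⟩ : ∃ Q : Sylow q G, (Q : Subgroup G) ≤ M := by
    obtain ⟨_, _, P0, hN⟩ := hq
    obtain ⟨T0, hT0⟩ := Cfsg.Agent.H31.BG8.sylow_of_normalizer_le P0 hN
    exact ⟨T0, by rw [hT0]; exact Subgroup.map_subtype_le _⟩
  -- (a)
  have ha : ∀ g : G, Mstar ≠ M.map (MulAut.conj g).toMonoidHom := by
    intro g hg
    rw [map_conj_eq_smul] at hg
    have h1 : (X.map (MulAut.conj g⁻¹).toMonoidHom) ≤ M := by
      rw [map_conj_eq_smul]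
      have := cj_mono g⁻¹ hXMs
      rwa [hg, cj_inv_cj] at this
    obtain ⟨m, hm, c, hc, hgmc⟩ := (h04 M hM q hq X hXq hX1 hXM).1 g⁻¹ h1
    have h2 : Mstar = MulAut.conj c⁻¹ • M := by rw [hg]; exact cj_of_decomp hm hgmc
    have h3 : MulAut.conj c • Mstar = Mstar := cj_eq_self_of_mem (hCX hc)
    apply hne
    rw [← h3, h2]
    have := cj_cj_inv c M
    exact this
  -- (c): `S'` is a Sylow subgroup of `Mstar`
  obtain ⟨T, hT⟩ := (hS'q.comap_of_injective Mstar.subtype
    (Subgroup.subtype_injective _)).exists_le_sylow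
  set T' : Subgroup G := (T : Subgroup Mstar).map Mstar.subtype with hT'def
  have hT'Ms : T' ≤ Mstar := Subgroup.map_subtype_le _
  have hT'q : IsPGroup q T' := T.isPGroup'.map _
  have hST' : S' ≤ T' := by
    intro x hx
    exact ⟨⟨x, hS'Ms hx⟩, hT (by rw [Subgroup.mem_comap]; exact hx), rfl⟩
  have hTS : T' = S' := by
    obtain ⟨g, hg⟩ := exists_conj_ge Q hQM hT'q
    have h1 : (S'.map (MulAut.conj g⁻¹).toMonoidHom) ≤ M := by
      rw [map_conj_eq_smul]
      have := cj_mono g⁻¹ (hST'.trans hg)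
      rwa [cj_inv_cj] at this
    obtain ⟨m, hm, c, hc, hgmc⟩ := (h04 M hM q hq S' hS'q hS'ne hS'M).1 g⁻¹ h1
    have h2 : MulAut.conj g • M = MulAut.conj c⁻¹ • M := cj_of_decomp hm hgmc
    have h3 : MulAut.conj c • T' ≤ M := by
      have := cj_mono c hg
      rwa [h2, cj_cj_inv] at this
    have h4 : MulAut.conj c • T' ≤ Mstar := by
      have := cj_mono c hT'Ms
      rwa [cj_eq_self_of_mem (hCS hc)] at this
    have h5 : S' ≤ MulAut.conj c • T' := by
      have := cj_mono c hST'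
      rwa [cj_eq_self_of_mem_normalizer (Subgroup.centralizer_le_normalizer _ hc)] at this
    have h6 := hmax _ (isPGroup_cj c hT'q) (le_inf h3 h4) h5
    have h7 : Nat.card T' = Nat.card S' := by rw [← h6, card_cj]
    exact (Subgroup.eq_of_le_of_card_ge hST' h7.le).symm
  have hc : ¬ q ∣ S'.relIndex Mstar := by
    rw [← hTS, hT'def]
    have h1 : ((T : Subgroup Mstar).map Mstar.subtype).relIndex Mstar = (T : Subgroup Mstar).index := by
      rw [Subgroup.relIndex, Subgroup.subgroupOf,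
        Subgroup.comap_map_eq_self_of_injective (Subgroup.subtype_injective _)]
    rw [h1]
    exact T.not_dvd_index
  refine ⟨ha, ?_, hc⟩
  -- (b)
  by_cases hcyc : IsCyclic S'
  · have h1 : normalizer (S' : Set G) ≤ Mstar := (normalizer_le_of_cyclic hcyc hXS).trans hNX
    have h2 : normalizer ((((T : Subgroup Mstar).map Mstar.subtype : Subgroup G)) : Set G) ≤ Mstar := by
      rw [← hT'def, hTS]; exact h1
    obtain ⟨R, hR⟩ := Cfsg.Agent.H31.BG8.sylow_of_normalizer_le T h2
    have hR' : (R : Subgroup G) = S' := by rw [hR, ← hT'def, hTS]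
    have := normalizer_le_of_sigma hq R (by rw [hR']; exact hS'M)
    rwa [hR'] at this
  · exact h20c M hM q S' hq hS'q hS'M hcyc

end Cfsg.Agent.H76.BG12
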