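import Mathlib
import Cfsg.Agent.H58.BG10Defs2
import Cfsg.Agent.H67.PNilp
import Cfsg.Agent.H38.PiCore
import Cfsg.Agent.H40.PComp
import Cfsg.Agent.Helper55.PRankOne
import Cfsg.Agent.S1450
import Cfsg.Agent.S1455
import Cfsg.Agent.H69.BGHallUniq
import Cfsg.Agent.H69.BGCycSyl
import Cfsg.Agent.H83.NarrowNotIdeal
import Cfsg.Agent.H67.BGHallNil

/-!
# Bender–Glauberman §10, tail: S1414 and S1415 from StSigComm, St1405, St1410 (helper76)
-/

set_option autoImplicit false

namespace Cfsg.Agent.H76.BG10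

open Cfsg Subgroup Cfsg.Agent.H58.BG10
open scoped commutatorElement

universe u

/-- S1414 without the hypothesis `hG`. -/
def St1414 (G : Type u) [Group G] : Prop :=
  ∀ (M : Subgroup G), IsCoatom M →
    IsPiHallOf (beta M) (piCoreOf (beta M) M) M ∧ IsPiHall (beta M) (piCoreOf (beta M) M) ∧
      (∃ H : Subgroup G, IsPiHallOf {q | q.Prime ∧ q ∉ beta M} H ⁅M, M⁆ ∧ Group.IsNilpotent H) ∧
      (∃ H : Subgroup G, IsPiHallOf {q | q.Prime ∧ q ∉ beta M} H (sigmaCore M) ∧
        Group.IsNilpotent H) ∧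
      ∀ p : ℕ, p.Prime → p ∣ Nat.card M → p ∉ beta M →
        HasNormalPComplement p ↥⁅M, M⁆ ∧ HasNormalPComplement p ↥(sigmaCore M) ∧
        ∀ q : ℕ, q.Prime → q ∣ (pPrimeCore p ↥M).index → q ≤ p

/-- S1415 without the hypothesis `hG`. -/
def St1415 (G : Type u) [Group G] : Prop :=
  ∀ (M : Subgroup G), IsCoatom M → ∀ E : Subgroup G, IsComplIn E (sigmaCore M) M →
    Group.IsNilpotent ↥⁅E, E⁆ ∧
      (∀ E₁ : Subgroup G, IsPiHallOf (tau1 M) E₁ E → IsCyclic E₁) ∧
      ∀ E₃ : Subgroup G, IsPiHallOf (tau3 M) E₃ E →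
        IsCyclic E₃ ∧ E₃ ≤ ⁅E, E⁆ ∧ E ≤ normalizer (E₃ : Set G)

/-- A subgroup all of whose "Sylow" parts lie in `L` lies in `L`. -/
theorem le_of_sylow_le {X : Type u} [Group X] (H L : Subgroup X) [Finite H]
    (h : ∀ p : ℕ, p.Prime → p ∣ Nat.card H →
      ∃ Q : Subgroup X, Q ≤ H ∧ Q ≤ L ∧ ¬ p ∣ Q.relIndex H) : H ≤ L := by
  rw [← Subgroup.relIndex_eq_one]
  rw [Nat.eq_one_iff_not_exists_prime_dvd]
  intro p hp hd
  have hdH : p ∣ Nat.card H := hd.trans (Subgroup.relIndex_dvd_card L H)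
  obtain ⟨Q, hQH, hQL, hQ⟩ := h p hp hdH
  exact hQ (hd.trans (Subgroup.relIndex_dvd_of_le_left H hQL))

variable {G : Type u} [Group G]

theorem solvable_coatom (hG : IsMinSimpleOddOrder G) {M : Subgroup G} (hM : IsCoatom M) :
    Group.IsSolvable ↥M := hG.2.2.2 M hM.1

theorem odd_card_subgroup [Finite G] (hG : IsMinSimpleOddOrder G) (M : Subgroup G) :
    Odd (Nat.card ↥M) :=
  Odd.of_dvd_nat hG.1 (Subgroup.card_subgroup_dvd_card M)

theorem ne_two_of_dvd [Finite G] (hG : IsMinSimpleOddOrder G) (M : Subgroup G) {p : ℕ}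
    (h : p ∣ Nat.card ↥M) : p ≠ 2 := by
  rintro rfl
  have h1 := odd_card_subgroup hG M
  rw [Nat.odd_iff] at h1
  omega

/-- `M_σ ≤ M'`, inside `M`. -/
theorem piCore_sigma_le_commutator [Finite G] (hT : StSigComm G) (M : Subgroup G)
    (hM : IsCoatom M) : piCore (sigma M) ↥M ≤ commutator ↥M := by
  apply le_of_sylow_le
  intro p hp hpd
  haveI : Fact p.Prime := ⟨hp⟩
  have hps : p ∈ sigma M := Cfsg.Agent.H38.piNat_card_piCore (sigma M) p hp hpd
  obtain ⟨P⟩ : Nonempty (Sylow p ↥M) := inferInstance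
  refine ⟨(P : Subgroup ↥M) ⊓ piCore (sigma M) ↥M, inf_le_right,
    inf_le_left.trans (hT M hM p hps P), ?_⟩
  rw [Subgroup.inf_relIndex_right]
  exact Cfsg.Agent.H40.sylow_relIndex_normal_not_dvd P _

/-- `M_σ ≤ M'`, inside `G`. -/
theorem sigmaCore_le_commutator [Finite G] (hT : StSigComm G) (M : Subgroup G)
    (hM : IsCoatom M) : sigmaCore M ≤ ⁅M, M⁆ := by
  rw [← Subgroup.map_subtype_commutator]
  exact Subgroup.map_mono (piCore_sigma_le_commutator hT M hM)

theorem pRankLE_subgroup {p k : ℕ} (M : Subgroup G) (h : PRankLE p k G) : PRankLE p k ↥M := by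
  intro A hA hAp
  have h1 := h (A.map M.subtype) inferInstance (by
    rintro _ ⟨a, ha, rfl⟩
    rw [← map_pow, hAp a ha, map_one])
  rwa [Subgroup.card_map_of_injective M.subtype_injective] at h1

theorem pRankLE_of_mulEquiv {R R' : Type u} [Group R] [Group R'] {p k : ℕ} (e : R ≃* R')
    (h : PRankLE p k R) : PRankLE p k R' := by
  intro A hA hAp
  have h1 := h (A.map e.symm.toMonoidHom) inferInstance (by
    rintro _ ⟨a, ha, rfl⟩
    rw [← map_pow, hAp a ha, map_one])
  rwa [Subgroup.card_map_of_injective e.symm.injective] at h1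

theorem isNarrow_of_mulEquiv {R R' : Type u} [Group R] [Group R'] {p : ℕ} (e : R ≃* R')
    (h : IsNarrow p R) : IsNarrow p R' := by
  rcases h with h | ⟨R₀, R₁, h0, h1, h2, h3, h4⟩
  · exact Or.inl (pRankLE_of_mulEquiv e h)
  · right
    refine ⟨R₀.map e.toMonoidHom, R₁.map e.toMonoidHom, ?_, ?_, ?_, ?_, ?_⟩
    · rw [Subgroup.card_map_of_injective e.injective, h0]
    · haveI := h1
      exact isCyclic_of_surjective (e.toMonoidHom.subgroupMap R₁)
        (e.toMonoidHom.subgroupMap_surjective R₁)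
    · rw [← Subgroup.map_inf _ _ _ e.injective, h2, Subgroup.map_bot]
    · rintro _ ⟨a, ha, rfl⟩ _ ⟨b, hb, rfl⟩
      show e a * e b = e b * e a
      rw [← map_mul, ← map_mul, h3 a ha b hb]
    · rw [← Subgroup.map_sup, h4]
      ext y
      constructor
      · rintro ⟨x, hx, rfl⟩
        rw [Subgroup.mem_centralizer_iff]
        rintro _ ⟨a, ha, rfl⟩
        show e a * e x = e x * e a
        rw [← map_mul, ← map_mul, Subgroup.mem_centralizer_iff.mp hx a ha]
      · intro hy
        refine ⟨e.symm y, ?_, by simp⟩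
        show e.symm y ∈ centralizer (R₀ : Set R)
        rw [Subgroup.mem_centralizer_iff]
        intro a ha
        have h5 := Subgroup.mem_centralizer_iff.mp hy (e a) ⟨a, ha, rfl⟩
        apply e.injective
        rw [map_mul, map_mul]
        simpa using h5

/-- Step A: for `p ∣ |M|`, `p ∉ β(M)`: `M'` has a normal `p`-complement and the primes of
`|M : O_{p'}(M)|` are at most `p`. -/
theorem bg108_p [Finite G] (hG : IsMinSimpleOddOrder G) (h102 : St1405 G) (h107a : St1410 G)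
    (M : Subgroup G) (hM : IsCoatom M) (p : ℕ) (hp : p.Prime) (hpM : p ∣ Nat.card M)
    (hpb : p ∉ beta M) :
    HasNormalPComplement p ↥(commutator ↥M) ∧
      ∀ q : ℕ, q.Prime → q ∣ (pPrimeCore p ↥M).index → q ≤ p := by
  haveI : Fact p.Prime := ⟨hp⟩
  haveI : Group.IsSolvable ↥M := solvable_coatom hG hM
  have hodd : Odd (Nat.card ↥M) := odd_card_subgroup hG M
  by_cases hr : PRankLE p 2 ↥M
  · have h := Cfsg.Agent.S1450.result hodd p hpM hr
    exact ⟨h.2.2.1, h.1⟩
  · have hpa : p ∈ alpha M := ⟨hp, hr⟩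
    have hni : ¬ IsIdealPrime p G := fun h => hpb ⟨hpa, h⟩
    have hrG : ¬ PRankLE p 2 G := fun h => hr (pRankLE_subgroup M h)
    have hp2 : p ≠ 2 := ne_two_of_dvd hG M hpM
    obtain ⟨S⟩ : Nonempty (Sylow p ↥M) := inferInstance
    have hidx : ¬ p ∣ M.index := by
      intro hd
      have h1 := (h102 M hM).2.1.2 p hp hpa
      exact h1 (hd.trans (Subgroup.index_dvd_of_le (Subgroup.map_subtype_le _)))
    have hidx' : ¬ p ∣ ((S : Subgroup ↥M).map M.subtype).index := by
      rw [Subgroup.index_map_subtype]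
      intro hd
      rcases hp.dvd_mul.mp hd with hd | hd
      · exact S.not_dvd_index hd
      · exact hidx hd
    have hnar : IsNarrow p ↥((S : Subgroup ↥M).map M.subtype) :=
      Cfsg.Agent.H83.NarrowNotIdeal.narrow_of_not_ideal p hp2 hrG hni
        (IsPGroup.toSylow (S.isPGroup'.map M.subtype) hidx')
    have hnarS : IsNarrow p ↥(S : Subgroup ↥M) :=
      isNarrow_of_mulEquiv
        ((S : Subgroup ↥M).equivMapOfInjective M.subtype M.subtype_injective).symm hnar
    have h := Cfsg.Agent.S1455.result hodd p hpM S hnarS (fun _ => h107a p M hM.1)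
    exact ⟨h.2.2.1, h.1⟩

theorem relIndex_map_subtype' (M : Subgroup G) (K : Subgroup ↥M) :
    (K.map M.subtype).relIndex M = K.index := by
  rw [Subgroup.relIndex, Subgroup.subgroupOf,
    Subgroup.comap_map_eq_self_of_injective M.subtype_injective]

/-- `M_α ≤ M'` inside `M`. -/
theorem piCore_alpha_le_commutator [Finite G] (hT : StSigComm G) (h102 : St1405 G)
    (M : Subgroup G) (hM : IsCoatom M) : piCore (alpha M) ↥M ≤ commutator ↥M := by
  have h1 : alphaCore M ≤ sigmaCore M := (h102 M hM).2.2.1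
  have h2 : piCore (alpha M) ↥M ≤ piCore (sigma M) ↥M :=
    (Subgroup.map_le_map_iff_of_injective M.subtype_injective).mp h1
  exact h2.trans (piCore_sigma_le_commutator hT M hM)

theorem not_dvd_index_of_alpha [Finite G] (h102 : St1405 G)
    (M : Subgroup G) (hM : IsCoatom M) {p : ℕ} (hp : p.Prime) (hpa : p ∈ alpha M) :
    ¬ p ∣ M.index := by
  intro hd
  have h1 := (h102 M hM).2.1.2 p hp hpa
  exact h1 (hd.trans (Subgroup.index_dvd_of_le (Subgroup.map_subtype_le _)))

/-- **B&G 10.8-type statement S1414** from the transfer lemma, 10.2 and 10.7(a). -/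
theorem bg108 [Finite G] (hG : IsMinSimpleOddOrder G) (hT : StSigComm G) (h102 : St1405 G)
    (h107a : St1410 G) : St1414 G := by
  intro M hM
  have hA := fun p hp hpM hpb => bg108_p hG h102 h107a M hM p hp hpM hpb
  have hcM : Nat.card ↥⁅M, M⁆ ∣ Nat.card ↥M :=
    Subgroup.card_dvd_of_le (Subgroup.commutator_le_self M)
  have hcM' : Nat.card ↥(commutator ↥M) ∣ Nat.card ↥M := Subgroup.card_subgroup_dvd_card _
  have hcomm : ∀ p : ℕ, p.Prime → p ∣ Nat.card M → p ∉ beta M →
      HasNormalPComplement p ↥⁅M, M⁆ := by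
    intro p hp hpM hpb
    haveI : Fact p.Prime := ⟨hp⟩
    let e : ↥(commutator ↥M) ≃* ↥⁅M, M⁆ :=
      ((commutator ↥M).equivMapOfInjective M.subtype M.subtype_injective).trans
        (MulEquiv.subgroupCongr (Subgroup.map_subtype_commutator M))
    exact Cfsg.Agent.H67.hnpc_of_injective e.symm.toMonoidHom e.symm.injective
      (hA p hp hpM hpb).1
  have hsig : ∀ p : ℕ, p.Prime → p ∣ Nat.card M → p ∉ beta M →
      HasNormalPComplement p ↥(sigmaCore M) := by
    intro p hp hpM hpb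
    haveI : Fact p.Prime := ⟨hp⟩
    exact Cfsg.Agent.H67.hnpc_of_injective
      (Subgroup.inclusion (sigmaCore_le_commutator hT M hM))
      (Subgroup.inclusion_injective _) (hcomm p hp hpM hpb)
  -- the normal Hall β-subgroup of `M'`
  obtain ⟨B, hBchar, hBπ, hBidx, -⟩ :=
    Cfsg.Agent.H67.BG.exists_char_hall_of_hnpc (X := ↥(commutator ↥M)) (beta M)
      (fun p hp hpd hpb => (hA p hp (hpd.trans hcM') hpb).1)
  haveI := hBchar
  have hBn : (B.map (commutator ↥M).subtype).Normal := inferInstance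
  have hBle : B.map (commutator ↥M).subtype ≤ piCore (beta M) ↥M := by
    apply Cfsg.Agent.H38.le_piCore _ hBn
    intro q hq hqd
    rw [Subgroup.card_map_of_injective (commutator ↥M).subtype_injective] at hqd
    exact hBπ q hq hqd
  have hβidx : ∀ p : ℕ, p.Prime → p ∈ beta M → ¬ p ∣ (piCore (beta M) ↥M).index := by
    intro p hp hpβ hd
    have h1 : p ∣ (B.map (commutator ↥M).subtype).index :=
      hd.trans (Subgroup.index_dvd_of_le hBle)
    rw [Subgroup.index_map_subtype] at h1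
    rcases hp.dvd_mul.mp h1 with h1 | h1
    · exact hBidx p hp hpβ h1
    · have h2 := piCore_alpha_le_commutator hT h102 M hM
      have h3 : ¬ p ∣ (piCore (alpha M) ↥M).index := by
        have h4 := (h102 M hM).1.2.2 p hp hpβ.1
        rwa [alphaCore, relIndex_map_subtype'] at h4
      exact h3 (h1.trans (Subgroup.index_dvd_of_le h2))
  have hβcard : ∀ p : ℕ, p.Prime → p ∣ Nat.card ↥(piCoreOf (beta M) M) → p ∈ beta M := by
    intro p hp hd
    rw [piCoreOf, Subgroup.card_map_of_injective M.subtype_injective] at hd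
    exact Cfsg.Agent.H38.piNat_card_piCore (beta M) p hp hd
  refine ⟨⟨Subgroup.map_subtype_le _, hβcard, ?_⟩, ⟨hβcard, ?_⟩, ?_, ?_, ?_⟩
  · intro p hp hpβ
    rw [piCoreOf, relIndex_map_subtype']
    exact hβidx p hp hpβ
  · intro p hp hpβ hd
    rw [piCoreOf, Subgroup.index_map_subtype] at hd
    rcases hp.dvd_mul.mp hd with hd | hd
    · exact hβidx p hp hpβ hd
    · exact not_dvd_index_of_alpha h102 M hM hp hpβ.1 hd
  · exact Cfsg.Agent.H67.BG.exists_nilpotent_hall_of_hnpc ⁅M, M⁆ (beta M)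
      (fun p hp hpd hpb => hcomm p hp (hpd.trans hcM) hpb)
  · exact Cfsg.Agent.H67.BG.exists_nilpotent_hall_of_hnpc (sigmaCore M) (beta M)
      (fun p hp hpd hpb => hsig p hp
        (hpd.trans (Subgroup.card_dvd_of_le (Subgroup.map_subtype_le _))) hpb)
  · intro p hp hpM hpb
    exact ⟨hcomm p hp hpM hpb, hsig p hp hpM hpb, (hA p hp hpM hpb).2⟩

/-! ### S1415 -/

theorem isNilpotent_of_injective {H K : Type*} [Group H] [Group K] [Group.IsNilpotent K]
    (f : H →* K) (hf : Function.Injective f) : Group.IsNilpotent H :=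
  Group.nilpotent_of_mulEquiv (MonoidHom.ofInjective hf).symm

theorem pRankLE_of_injective {R R' : Type*} [Group R] [Group R'] {p k : ℕ} (f : R →* R')
    (hf : Function.Injective f) (h : PRankLE p k R') : PRankLE p k R := by
  intro A hA hAp
  have h1 := h (A.map f) inferInstance (by
    rintro _ ⟨a, ha, rfl⟩
    rw [← map_pow, hAp a ha, map_one])
  rwa [Subgroup.card_map_of_injective hf] at h1

/-- a subgroup of `M` whose primes all have `p`-rank ≤ 1 in `M` has cyclic Sylow subgroups -/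
theorem isZGroup_of_rank [Finite G] (hG : IsMinSimpleOddOrder G) (M Y : Subgroup G)
    (hYM : Y ≤ M) (h : ∀ p : ℕ, p.Prime → p ∣ Nat.card Y → PRankLE p 1 ↥M) : IsZGroup ↥Y := by
  refine ⟨fun p hp P => ?_⟩
  haveI : Fact p.Prime := ⟨hp⟩
  obtain ⟨n, hn⟩ := IsPGroup.iff_card.mp P.isPGroup'
  rcases Nat.eq_zero_or_pos n with h0 | h0
  · rw [h0, pow_zero] at hn
    haveI : Subsingleton ↥(P : Subgroup ↥Y) := (Nat.card_eq_one_iff_unique.mp hn).1
    exact isCyclic_of_subsingleton
  · have hpd : p ∣ Nat.card Y := by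
      have h1 : p ∣ Nat.card ↥(P : Subgroup ↥Y) := by rw [hn]; exact dvd_pow_self p h0.ne'
      exact h1.trans (Subgroup.card_subgroup_dvd_card _)
    have hp2 : p ≠ 2 := ne_two_of_dvd hG Y hpd
    apply Cfsg.Agent.Helper55.isCyclic_of_pRankLE_one hp2 P.isPGroup'
    exact pRankLE_of_injective ((Subgroup.inclusion hYM).comp (P : Subgroup ↥Y).subtype)
      ((Subgroup.inclusion_injective hYM).comp Subtype.coe_injective) (h p hp hpd)

/-- for a complement `E` of `M_σ` in `M`: `M' ∩ E ≤ E'` -/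
theorem compl_commutator {M E : Subgroup G} (hE : IsComplIn E (sigmaCore M) M) {x : G}
    (hx : x ∈ ⁅M, M⁆) (hxE : x ∈ E) : x ∈ ⁅E, E⁆ := by
  obtain ⟨hEM, -, hES, hprod⟩ := hE
  set K : Subgroup ↥M := piCore (sigma M) ↥M with hK
  let φ : ↥E →* ↥M ⧸ K := (QuotientGroup.mk' K).comp (Subgroup.inclusion hEM)
  have hφinj : Function.Injective φ := by
    rw [injective_iff_map_eq_one]
    intro a ha
    have h1 : Subgroup.inclusion hEM a ∈ K := (QuotientGroup.eq_one_iff _).mp ha
    have h2 : (a : G) ∈ E ⊓ sigmaCore M := ⟨a.2, ⟨_, h1, rfl⟩⟩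
    rw [hES] at h2
    exact Subtype.ext (Subgroup.mem_bot.mp h2)
  have hφsurj : Function.Surjective φ := by
    intro y
    obtain ⟨m, rfl⟩ := QuotientGroup.mk_surjective y
    obtain ⟨a, ha, b, hb, hm⟩ := hprod m m.2
    obtain ⟨b', hb', hb'e⟩ := hb
    refine ⟨⟨a, ha⟩, ?_⟩
    show (QuotientGroup.mk (Subgroup.inclusion hEM ⟨a, ha⟩) : ↥M ⧸ K) = QuotientGroup.mk m
    rw [QuotientGroup.eq]
    have h1 : (Subgroup.inclusion hEM ⟨a, ha⟩)⁻¹ * m = b' := by
      apply Subtype.ext
      show a⁻¹ * (m : G) = (b' : G)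
      rw [hm, inv_mul_cancel_left]
      exact hb'e.symm
    rw [h1]; exact hb'
  rw [← Subgroup.map_subtype_commutator] at hx
  obtain ⟨x', hx', rfl⟩ := hx
  have h1 : (QuotientGroup.mk' K) x' ∈ (commutator ↥E).map φ := by
    have h2 : (commutator ↥E).map φ = commutator (↥M ⧸ K) := by
      rw [map_commutator_eq, MonoidHom.range_eq_top.mpr hφsurj, _root_.commutator_def]
    rw [h2]
    have h3 : (commutator ↥M).map (QuotientGroup.mk' K) = commutator (↥M ⧸ K) := by
      rw [map_commutator_eq, MonoidHom.range_eq_top.mpr (QuotientGroup.mk'_surjective K),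
        _root_.commutator_def]
    rw [← h3]
    exact Subgroup.mem_map_of_mem _ hx'
  obtain ⟨y, hy, hyx⟩ := h1
  have h4 : y = ⟨M.subtype x', hxE⟩ := hφinj (by rw [hyx]; rfl)
  rw [← Subgroup.map_subtype_commutator]
  exact ⟨y, hy, by rw [h4]; rfl⟩

/-- for a complement `E` of `M_σ` in `M`: `E'` is nilpotent -/
theorem nilpotent_commutator_compl [Finite G] (h102 : St1405 G) {M E : Subgroup G}
    (hM : IsCoatom M) (hE : IsComplIn E (sigmaCore M) M) : Group.IsNilpotent ↥⁅E, E⁆ := by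
  obtain ⟨hEM, -, hES, -⟩ := hE
  have hEE : ⁅E, E⁆ ≤ M := (Subgroup.commutator_le_self E).trans hEM
  set Ka : Subgroup ↥M := piCore (alpha M) ↥M with hKa
  haveI : Group.IsNilpotent ↥((commutator ↥M).map (QuotientGroup.mk' Ka)) :=
    (h102 M hM).2.2.2.2
  let ψ₀ : ↥⁅E, E⁆ →* ↥M ⧸ Ka := (QuotientGroup.mk' Ka).comp (Subgroup.inclusion hEE)
  have hmem : ∀ x : ↥⁅E, E⁆, ψ₀ x ∈ (commutator ↥M).map (QuotientGroup.mk' Ka) := by
    intro x
    have h1 : (x : G) ∈ ⁅M, M⁆ := Subgroup.commutator_mono hEM hEM x.2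
    rw [← Subgroup.map_subtype_commutator] at h1
    obtain ⟨y, hy, hyx⟩ := h1
    have h2 : Subgroup.inclusion hEE x = y := Subtype.ext hyx.symm
    exact ⟨y, hy, by rw [← h2]; rfl⟩
  have hinj : Function.Injective (ψ₀.codRestrict _ hmem) := by
    rw [injective_iff_map_eq_one]
    intro a ha
    have h0 : ψ₀ a = 1 := congrArg Subtype.val ha
    have h1 : Subgroup.inclusion hEE a ∈ Ka := (QuotientGroup.eq_one_iff _).mp h0
    have h2 : (a : G) ∈ alphaCore M := ⟨_, h1, rfl⟩
    have h3 : (a : G) ∈ E ⊓ sigmaCore M :=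
      ⟨Subgroup.commutator_le_self E a.2, (h102 M hM).2.2.1 h2⟩
    rw [hES] at h3
    exact Subtype.ext (Subgroup.mem_bot.mp h3)
  exact isNilpotent_of_injective _ hinj

/-- **S1415** from B&G 10.2. -/
theorem bg109 [Finite G] (hG : IsMinSimpleOddOrder G) (h102 : St1405 G) :
    St1415 G := by
  intro M hM E hE
  have hEM : E ≤ M := hE.1
  haveI hnil : Group.IsNilpotent ↥⁅E, E⁆ := nilpotent_commutator_compl h102 hM hE
  refine ⟨hnil, ?_, ?_⟩
  · intro E₁ hE₁
    obtain ⟨h1E, h1π, -⟩ := hE₁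
    have h1M : E₁ ≤ M := h1E.trans hEM
    haveI : IsZGroup ↥E₁ :=
      isZGroup_of_rank hG M E₁ h1M (fun p hp hpd => (h1π p hp hpd).2.2.2.2)
    have hbot : E₁ ⊓ ⁅M, M⁆ = ⊥ := by
      apply Subgroup.eq_bot_of_card_eq
      rw [Nat.eq_one_iff_not_exists_prime_dvd]
      intro p hp hd
      have hd1 : p ∣ Nat.card E₁ := hd.trans (Subgroup.card_dvd_of_le inf_le_left)
      have hd2 : p ∣ Nat.card ↥⁅M, M⁆ := hd.trans (Subgroup.card_dvd_of_le inf_le_right)
      exact (h1π p hp hd1).2.2.2.1 hd2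
    have hcomm : ∀ a b : ↥E₁, a * b = b * a := by
      intro a b
      have h2 : ⁅(a : G), (b : G)⁆ ∈ E₁ ⊓ ⁅M, M⁆ :=
        ⟨E₁.mul_mem (E₁.mul_mem (E₁.mul_mem a.2 b.2) (E₁.inv_mem a.2)) (E₁.inv_mem b.2),
          Subgroup.commutator_mem_commutator (h1M a.2) (h1M b.2)⟩
      rw [hbot, Subgroup.mem_bot, commutatorElement_eq_one_iff_mul_comm] at h2
      exact Subtype.ext h2
    haveI : Group.IsNilpotent ↥E₁ := by
      letI : CommGroup ↥E₁ := { (inferInstance : Group ↥E₁) with mul_comm := hcomm }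
      exact CommGroup.isNilpotent
    exact inferInstance
  · intro E₃ hE₃
    obtain ⟨h3E, h3π, h3idx⟩ := hE₃
    have h3M : E₃ ≤ M := h3E.trans hEM
    have h3c : E₃ ≤ ⁅E, E⁆ := by
      apply le_of_sylow_le
      intro p hp hpd
      haveI : Fact p.Prime := ⟨hp⟩
      obtain ⟨-, hpσ, hpc, hrk⟩ := h3π p hp hpd
      obtain ⟨Q₀⟩ : Nonempty (Sylow p ↥E₃) := inferInstance
      refine ⟨(Q₀ : Subgroup ↥E₃).map E₃.subtype, Subgroup.map_subtype_le _, ?_, ?_⟩
      · have hQM : (Q₀ : Subgroup ↥E₃).map E₃.subtype ≤ M :=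
          (Subgroup.map_subtype_le _).trans h3M
        have hQp : IsPGroup p ↥(((Q₀ : Subgroup ↥E₃).map E₃.subtype).subgroupOf M) :=
          (Q₀.isPGroup'.map E₃.subtype).comap_subtype
        obtain ⟨P, hP⟩ := hQp.exists_le_sylow
        have hPc : IsCyclic ↥(P : Subgroup ↥M) := by
          apply Cfsg.Agent.Helper55.isCyclic_of_pRankLE_one (ne_two_of_dvd hG E₃ hpd)
            P.isPGroup'
          exact pRankLE_of_injective (P : Subgroup ↥M).subtype Subtype.coe_injective hrk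
        have hpc' : p ∣ Nat.card ↥(commutator ↥M) := by
          rw [← Subgroup.card_map_of_injective M.subtype_injective,
            Subgroup.map_subtype_commutator]
          exact hpc
        have hPle := Cfsg.Agent.H69.BG.sylow_le_commutator_of_cyclic p P hPc hpc'
        intro x hx
        apply compl_commutator hE _ (h3E (Subgroup.map_subtype_le _ hx))
        rw [← Subgroup.map_subtype_commutator]
        exact ⟨⟨x, hQM hx⟩, hPle (hP (show (⟨x, hQM hx⟩ : ↥M) ∈
          ((Q₀ : Subgroup ↥E₃).map E₃.subtype).subgroupOf M from hx)), rfl⟩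
      · rw [relIndex_map_subtype']
        exact Q₀.not_dvd_index
    refine ⟨?_, h3c, ?_⟩
    · haveI : IsZGroup ↥E₃ :=
        isZGroup_of_rank hG M E₃ h3M (fun p hp hpd => (h3π p hp hpd).2.2.2)
      haveI : Group.IsNilpotent ↥E₃ :=
        isNilpotent_of_injective (Subgroup.inclusion h3c) (Subgroup.inclusion_injective h3c)
      exact inferInstance
    · intro e he
      have hconj : ∀ y ∈ ⁅E, E⁆, e * y * e⁻¹ ∈ ⁅E, E⁆ := by
        intro y hy
        rw [← Subgroup.map_subtype_commutator] at hy ⊢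
        obtain ⟨y', hy', rfl⟩ := hy
        exact ⟨⟨e, he⟩ * y' * ⟨e, he⟩⁻¹,
          (inferInstance : (commutator ↥E).Normal).conj_mem y' hy' ⟨e, he⟩, rfl⟩
      have hBle : E₃.map (MulAut.conj e).toMonoidHom ≤ ⁅E, E⁆ := by
        rintro _ ⟨y, hy, rfl⟩
        exact hconj y (h3c hy)
      have hcardA : Nat.card ↥(E₃.subgroupOf ⁅E, E⁆) = Nat.card E₃ :=
        Nat.card_congr (Subgroup.subgroupOfEquivOfLe h3c).toEquiv
      have hcardB : Nat.card ↥((E₃.map (MulAut.conj e).toMonoidHom).subgroupOf ⁅E, E⁆)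
          = Nat.card E₃ := by
        rw [Nat.card_congr (Subgroup.subgroupOfEquivOfLe hBle).toEquiv,
          Subgroup.card_map_of_injective (MulAut.conj e).injective]
      have hcop : (Nat.card ↥(E₃.subgroupOf ⁅E, E⁆)).Coprime (E₃.subgroupOf ⁅E, E⁆).index := by
        apply Nat.coprime_of_dvd
        intro q hq hqd hqi
        rw [hcardA] at hqd
        have h2 : E₃.relIndex ⁅E, E⁆ ∣ E₃.relIndex E :=
          Dvd.intro _ (Subgroup.relIndex_mul_relIndex E₃ ⁅E, E⁆ E h3c
            (Subgroup.commutator_le_self E))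
        exact h3idx q hq (h3π q hq hqd) (hqi.trans h2)
      have hAB := Cfsg.Agent.H69.BG.hall_unique_of_nilpotent _ _
        (hcardA.trans hcardB.symm) hcop
      rw [Subgroup.mem_normalizer_iff]
      intro h
      constructor
      · intro hh
        have h1 : (⟨e * h * e⁻¹, hconj h (h3c hh)⟩ : ↥⁅E, E⁆) ∈
            (E₃.map (MulAut.conj e).toMonoidHom).subgroupOf ⁅E, E⁆ := ⟨h, hh, rfl⟩
        rw [← hAB] at h1
        exact h1
      · intro hh
        have h1 : (⟨e * h * e⁻¹, h3c hh⟩ : ↥⁅E, E⁆) ∈ E₃.subgroupOf ⁅E, E⁆ := hh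
        rw [hAB] at h1
        obtain ⟨h', hh', hh'e⟩ := h1
        have h2 : e * h' * e⁻¹ = e * h * e⁻¹ := hh'e
        have h3 : h' = h := by simpa using h2
        rw [← h3]; exact hh'

end Cfsg.Agent.H76.BG10
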