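import Mathlib
import Cfsg.Prelude

set_option autoImplicit false

/-!
# The kill of configuration (NC) (Bender–Glauberman §14, towards S1353/S1354): statements (helper76)

`(NC)`: `M` a maximal subgroup, `E` a complement of `M_σ`, `r ∈ τ₂(M)`, the Sylow `r`-subgroups of
`G` nonabelian, `A ≤ E` elementary abelian of order `r²`, `A₀ = C_A(M_σ)`, `P ≤ E` of prime order
`p ∈ τ₁(M)` centralizing `A₀` but not `A`, `C_{M_σ}(P) ≠ 1`, and `(Z)`: `M ≤ C_G(A₀)`.
The pieces below prove that `(NC)` is impossible (fusion in a Sylow `r`-subgroup).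
-/

namespace Cfsg.Agent.H76.NCKill

open Cfsg Subgroup

universe u

/-- `A₀ = C_A(M_σ)`. -/
def A0 {G : Type u} [Group G] (M A : Subgroup G) : Subgroup G :=
  A ⊓ centralizer (sigmaCore M : Set G)

/-- The configuration `(NC)` together with `(Z)`. -/
structure NC {G : Type u} [Group G] (M E A P : Subgroup G) (r p : ℕ) : Prop where
  coatom : IsCoatom M
  compl : IsComplIn E (sigmaCore M) M
  tau2 : r ∈ tau2 M
  nonab : ∀ S : Sylow r G, ¬ IsMulCommutative (S : Subgroup G)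
  AE : A ≤ E
  Ael : IsElementaryAbelian r A
  Acard : Nat.card A = r ^ 2
  PE : P ≤ E
  Pcard : Nat.card P = p
  tau1 : p ∈ tau1 M
  PA0 : P ≤ centralizer ((A0 M A : Subgroup G) : Set G)
  PA : ¬ P ≤ centralizer (A : Set G)
  Kstar : sigmaCore M ⊓ centralizer (P : Set G) ≠ ⊥
  Z : M ≤ centralizer ((A0 M A : Subgroup G) : Set G)

/-- (KILL) the configuration `(NC)` does not occur. -/
def StKill (G : Type u) [Group G] [Finite G] : Prop :=
  IsMinSimpleOddOrder G → ∀ (M E A P : Subgroup G) (r p : ℕ) [Fact r.Prime],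
    NC M E A P r p → False

/-- (MSTAR) the maximal subgroup `M*` over a Sylow `r`-subgroup of `G` containing `A`:
`E ≤ M*`, `r, p ∉ β(M*)`, and `M*` contains the normalizer of each Sylow `r`-subgroup of `G` that
it contains. -/
def StMstar (G : Type u) [Group G] [Finite G] : Prop :=
  IsMinSimpleOddOrder G → ∀ (M E A P : Subgroup G) (r p : ℕ) [Fact r.Prime],
    NC M E A P r p →
    ∃ Ms : Subgroup G, IsCoatom Ms ∧ E ≤ Ms ∧ r ∉ beta Ms ∧ p ∉ beta Ms ∧
      (∃ S : Sylow r G, (S : Subgroup G) ≤ Ms ∧ A ≤ (S : Subgroup G)) ∧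
      (∀ S : Sylow r G, (S : Subgroup G) ≤ Ms → normalizer ((S : Subgroup G) : Set G) ≤ Ms)

/-- (SYLP) a `P`-invariant Sylow `r`-subgroup `S` of `G` inside `M*'` containing `A₀`. -/
def StSylP (G : Type u) [Group G] [Finite G] : Prop :=
  IsMinSimpleOddOrder G → ∀ (M E A P : Subgroup G) (r p : ℕ) [Fact r.Prime],
    NC M E A P r p →
    ∀ Ms : Subgroup G, IsCoatom Ms → E ≤ Ms → p ∉ beta Ms →
      (∃ S : Sylow r G, (S : Subgroup G) ≤ Ms ∧ A ≤ (S : Subgroup G)) →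
      (∀ S : Sylow r G, (S : Subgroup G) ≤ Ms → normalizer ((S : Subgroup G) : Set G) ≤ Ms) →
      ∃ S : Sylow r G, (S : Subgroup G) ≤ ⁅Ms, Ms⁆ ∧ A0 M A ≤ (S : Subgroup G) ∧
        P ≤ normalizer ((S : Subgroup G) : Set G)

/-- (COMM) `M*' ∩ N_G(S) ⊆ C_G(S)·S` for a Sylow `r`-subgroup `S ≤ M*'` of `G`, `r ∉ β(M*)`. -/
def StComm (G : Type u) [Group G] [Finite G] : Prop :=
  IsMinSimpleOddOrder G → ∀ (Ms : Subgroup G) (r : ℕ) [Fact r.Prime], IsCoatom Ms →
    r ∉ beta Ms → ∀ S : Sylow r G, (S : Subgroup G) ≤ ⁅Ms, Ms⁆ →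
      ∀ x ∈ ⁅Ms, Ms⁆ ⊓ normalizer ((S : Subgroup G) : Set G),
        ∃ c ∈ centralizer ((S : Subgroup G) : Set G), ∃ s ∈ (S : Subgroup G), x = c * s

/-- (TSTRUCT) `T = C_S(A₀)` is abelian and `Ω₁(T) ≤ A'` for an `M`-conjugate `A'` of `A`
with `A₀ ≤ A' ≤ S`. -/
def StTStruct (G : Type u) [Group G] [Finite G] : Prop :=
  IsMinSimpleOddOrder G → ∀ (M E A P : Subgroup G) (r p : ℕ) [Fact r.Prime],
    NC M E A P r p → ∀ S : Sylow r G, A0 M A ≤ (S : Subgroup G) →
      ∃ A' : Subgroup G, (∃ m ∈ M, A' = A.map (MulAut.conj m).toMonoidHom) ∧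
        IsElementaryAbelian r A' ∧ Nat.card A' = r ^ 2 ∧ A0 M A ≤ A' ∧ A' ≤ (S : Subgroup G) ∧
        IsMulCommutative ↥((S : Subgroup G) ⊓ centralizer ((A0 M A : Subgroup G) : Set G)) ∧
        ∀ x ∈ (S : Subgroup G) ⊓ centralizer ((A0 M A : Subgroup G) : Set G), x ^ r = 1 → x ∈ A'

/-- (CYC) every element of order dividing `r` of `C_S(P)` lies in `A₀`. -/
def StCyc (G : Type u) [Group G] [Finite G] : Prop :=
  IsMinSimpleOddOrder G → ∀ (M E A P : Subgroup G) (r p : ℕ) [Fact r.Prime],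
    NC M E A P r p → ∀ S : Sylow r G, A0 M A ≤ (S : Subgroup G) →
      P ≤ normalizer ((S : Subgroup G) : Set G) →
      ∀ A' : Subgroup G, (∃ m ∈ M, A' = A.map (MulAut.conj m).toMonoidHom) →
        A0 M A ≤ A' → A' ≤ (S : Subgroup G) →
        IsMulCommutative ↥((S : Subgroup G) ⊓ centralizer ((A0 M A : Subgroup G) : Set G)) →
        (∀ x ∈ (S : Subgroup G) ⊓ centralizer ((A0 M A : Subgroup G) : Set G),
          x ^ r = 1 → x ∈ A') →
        ∀ x ∈ (S : Subgroup G) ⊓ centralizer (P : Set G), x ^ r = 1 → x ∈ A0 M A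

/-- (FUS) every `N_G(S)`-conjugate of an element of `A₀` is an `S`-conjugate of it. -/
def StFus (G : Type u) [Group G] [Finite G] : Prop :=
  IsMinSimpleOddOrder G → ∀ (M E A P : Subgroup G) (r p : ℕ) [Fact r.Prime],
    NC M E A P r p → ∀ S : Sylow r G, A0 M A ≤ (S : Subgroup G) →
      P ≤ normalizer ((S : Subgroup G) : Set G) →
      (∀ x ∈ (S : Subgroup G) ⊓ centralizer (P : Set G), x ^ r = 1 → x ∈ A0 M A) →
      (∀ n ∈ normalizer ((S : Subgroup G) : Set G), ∀ g ∈ P,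
        ∃ c ∈ centralizer ((S : Subgroup G) : Set G), ∃ s ∈ (S : Subgroup G),
          g * n * g⁻¹ * n⁻¹ = c * s) →
      ∀ n ∈ normalizer ((S : Subgroup G) : Set G), ∀ a ∈ A0 M A,
        ∃ s ∈ (S : Subgroup G), n * a * n⁻¹ = s * a * s⁻¹

/-- (NORM) an element of a Sylow subgroup `S` all of whose `N_G(S)`-conjugates are
`S`-conjugates lies in `S'` (from `S = [S, V]`, S1411). -/
def StNorm (G : Type u) [Group G] [Finite G] : Prop :=
  IsMinSimpleOddOrder G → ∀ (r : ℕ) [Fact r.Prime] (S : Sylow r G) (a : G),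
    a ∈ (S : Subgroup G) →
    (∀ n ∈ normalizer ((S : Subgroup G) : Set G),
      ∃ s ∈ (S : Subgroup G), n * a * n⁻¹ = s * a * s⁻¹) →
    a ∈ ⁅(S : Subgroup G), (S : Subgroup G)⁆

/-- (RK2) pure: an `r`-group `S` with a normal subgroup `A'` of order `r²` and `a ∈ A'` such that
`C_S(a)` is abelian with all its elements of order dividing `r` in `A'` has `r`-rank at most 2. -/
def StRk2 (G : Type u) [Group G] [Finite G] : Prop :=
  ∀ (r : ℕ) [Fact r.Prime] (S : Sylow r G) (a : G) (A' : Subgroup G),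
    a ∈ A' → A' ≤ (S : Subgroup G) → Nat.card A' = r ^ 2 →
    (S : Subgroup G) ≤ normalizer (A' : Set G) →
    IsMulCommutative ↥((S : Subgroup G) ⊓ centralizer ({a} : Set G)) →
    (∀ x ∈ (S : Subgroup G) ⊓ centralizer ({a} : Set G), x ^ r = 1 → x ∈ A') →
    PRankLE r 2 ↥(S : Subgroup G)

/-- (NOTDER) in a nonabelian Sylow `r`-subgroup `S` of `G`, an element `a` whose centralizer in
`S` is abelian with `Ω₁ ≤ A'`, `A'` elementary abelian of order `r²` containing `a`, is not in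
`S'`. -/
def StNotDer (G : Type u) [Group G] [Finite G] : Prop :=
  IsMinSimpleOddOrder G → ∀ (r : ℕ) [Fact r.Prime] (S : Sylow r G) (a : G) (A' : Subgroup G),
    ¬ IsMulCommutative ↥(S : Subgroup G) → a ∈ A' → A' ≤ (S : Subgroup G) →
    IsElementaryAbelian r A' → Nat.card A' = r ^ 2 →
    IsMulCommutative ↥((S : Subgroup G) ⊓ centralizer ({a} : Set G)) →
    (∀ x ∈ (S : Subgroup G) ⊓ centralizer ({a} : Set G), x ^ r = 1 → x ∈ A') →
    a ∉ ⁅(S : Subgroup G), (S : Subgroup G)⁆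

end Cfsg.Agent.H76.NCKill
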