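import Mathlib
import Cfsg.Agent.H3.Critical
import Cfsg.Agent.H3.SelfCentCyclic
import Cfsg.Agent.H76.LinDer

set_option autoImplicit false

namespace Cfsg.Agent.H76.Imprim

open Cfsg.Agent.H76.LinDer

/-- A non-cyclic normal abelian subgroup of a finite `p`-group yields a normal elementary abelian
subgroup `⟨z, v⟩` of order `p ^ 2` with `z` central. -/
theorem exists_zv {P : Type*} [Group P] [Finite P] (p : ℕ) [Fact p.Prime] (hP : IsPGroup p P)
    (A : Subgroup P) (hAn : A.Normal) (hAc : ∀ a ∈ A, ∀ b ∈ A, a * b = b * a)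
    (hnc : ¬ IsCyclic A) :
    ∃ z v : P, z ≠ 1 ∧ z ^ p = 1 ∧ (∀ h : P, h * z = z * h) ∧ v ^ p = 1 ∧
      v ∉ Subgroup.zpowers z ∧ ∀ h : P, ∃ c : ℕ, h * v * h⁻¹ = v * z ^ c := by
  have hp : p.Prime := Fact.out
  let Om : Subgroup P :=
    { carrier := {x | x ∈ A ∧ x ^ p = 1}
      one_mem' := ⟨A.one_mem, one_pow _⟩
      mul_mem' := by
        rintro x y ⟨hx, hxp⟩ ⟨hy, hyp⟩
        refine ⟨A.mul_mem hx hy, ?_⟩
        have hc : Commute x y := hAc x hx y hy
        show (x * y) ^ p = 1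
        rw [hc.mul_pow, hxp, hyp, one_mul]
      inv_mem' := by
        rintro x ⟨hx, hxp⟩
        exact ⟨A.inv_mem hx, by show x⁻¹ ^ p = 1; rw [inv_pow, hxp, inv_one]⟩ }
  have hOmn : Om.Normal := by
    constructor
    intro x hx g
    refine ⟨hAn.conj_mem x hx.1 g, ?_⟩
    show (g * x * g⁻¹) ^ p = 1
    rw [conj_pow, hx.2]; group
  have hex : ∃ x ∈ A, ∃ y ∈ A, x ^ p = 1 ∧ y ^ p = 1 ∧ x ≠ 1 ∧ y ∉ Subgroup.zpowers x := by
    by_contra hcon
    push Not at hcon
    obtain ⟨a, haA, hgen⟩ := Cfsg.Agent.H3.exists_generator_of_omega_cyclic hP A hAc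
      (fun x hx y hy hxp hyp hx1 => hcon x hx y hy hxp hyp hx1)
    apply hnc
    refine ⟨⟨⟨a, haA⟩, fun b => ?_⟩⟩
    obtain ⟨k, hk⟩ := Subgroup.mem_zpowers_iff.mp (hgen b b.2)
    exact Subgroup.mem_zpowers_iff.mpr ⟨k, Subtype.ext (by simpa using hk)⟩
  obtain ⟨x, hxA, y, hyA, hxp, hyp, hx1, hyx⟩ := hex
  have hOmbot : Om ≠ ⊥ := by
    intro h
    have : x ∈ Om := ⟨hxA, hxp⟩
    rw [h, Subgroup.mem_bot] at this
    exact hx1 this
  obtain ⟨z, hzOm, hzc, hz1⟩ := Cfsg.Agent.H3.normal_inf_center_ne_bot hP Om hOmbot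
  have hzcomm : ∀ h : P, h * z = z * h := fun h => (Subgroup.mem_center_iff.mp hzc h)
  have hzp : z ^ p = 1 := hzOm.2
  have hzo : orderOf z = p := orderOf_eq_prime hzp hz1
  have hZn : (Subgroup.zpowers z).Normal := by
    constructor
    intro n hn g
    obtain ⟨k, rfl⟩ := Subgroup.mem_zpowers_iff.mp hn
    have h1 : g * z ^ k = z ^ k * g := (Commute.zpow_right (hzcomm g) k)
    have h2 : g * z ^ k * g⁻¹ = z ^ k := by rw [h1, mul_inv_cancel_right]
    rw [h2]
    exact Subgroup.zpow_mem _ (Subgroup.mem_zpowers z) k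
  -- `Om` is not inside `⟨z⟩`
  have hOmZ : ¬ Om ≤ Subgroup.zpowers z := by
    intro hle
    have hxZ : x ∈ Subgroup.zpowers z := hle ⟨hxA, hxp⟩
    have hyZ : y ∈ Subgroup.zpowers z := hle ⟨hyA, hyp⟩
    have hxo : orderOf x = p := orderOf_eq_prime hxp hx1
    have hle2 : Subgroup.zpowers x ≤ Subgroup.zpowers z := by
      rw [Subgroup.zpowers_le]; exact hxZ
    have heq : Subgroup.zpowers x = Subgroup.zpowers z := by
      apply Subgroup.eq_of_le_of_card_ge hle2
      rw [Nat.card_zpowers, Nat.card_zpowers, hxo, hzo]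
    exact hyx (heq ▸ hyZ)
  let π := QuotientGroup.mk' (Subgroup.zpowers z)
  have hπs : Function.Surjective π := QuotientGroup.mk'_surjective _
  have hOm'n : (Om.map π).Normal := hOmn.map π hπs
  have hOm'bot : Om.map π ≠ ⊥ := by
    intro h
    apply hOmZ
    intro w hw
    have : π w ∈ Om.map π := Subgroup.mem_map_of_mem π hw
    rw [h, Subgroup.mem_bot] at this
    exact (QuotientGroup.eq_one_iff w).mp this
  obtain ⟨v', hv'Om, hv'c, hv'1⟩ :=
    Cfsg.Agent.H3.normal_inf_center_ne_bot (hP.to_quotient (Subgroup.zpowers z)) (Om.map π) hOm'bot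
  obtain ⟨v, hvOm, rfl⟩ := Subgroup.mem_map.mp hv'Om
  refine ⟨z, v, hz1, hzp, hzcomm, hvOm.2, ?_, ?_⟩
  · intro hv
    apply hv'1
    exact (QuotientGroup.eq_one_iff v).mpr hv
  · intro h
    have h1 : π (h * v * h⁻¹) = π v := by
      rw [map_mul, map_mul, map_inv]
      have := Subgroup.mem_center_iff.mp hv'c (π h)
      rw [this, mul_inv_cancel_right]
    have h2 : v⁻¹ * (h * v * h⁻¹) ∈ Subgroup.zpowers z := by
      have h3 : π v = π (h * v * h⁻¹) := h1.symm
      exact QuotientGroup.eq.mp h3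
    obtain ⟨k, hk⟩ := Subgroup.mem_zpowers_iff.mp h2
    refine ⟨(k % (p : ℤ)).toNat, ?_⟩
    have hk2 : z ^ (k % (p : ℤ)).toNat = z ^ k := by
      rw [← zpow_natCast, Int.toNat_of_nonneg (Int.emod_nonneg _ (by exact_mod_cast hp.ne_zero))]
      conv_lhs => rw [← hzo]
      exact zpow_mod_orderOf z k
    rw [hk2, hk, mul_inv_cancel_left]

theorem orderOf_addRight (p : ℕ) [Fact p.Prime] [NeZero p] (a : Fin p) (ha : a ≠ 0) :
    orderOf (Equiv.addRight a) = p := by
  have hpow : ∀ (k : ℕ) (i : Fin p), ((Equiv.addRight a) ^ k) i = i + k • a := by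
    intro k
    induction k with
    | zero => intro i; simp
    | succ k ih =>
      intro i
      rw [pow_succ, Equiv.Perm.mul_apply, ih, Equiv.coe_addRight, succ_nsmul, add_assoc,
        add_comm a]
  apply orderOf_eq_prime
  · ext i
    rw [hpow]
    have h1 : p • a = 0 := by
      have := card_nsmul_eq_zero (G := Fin p) (x := a)
      simpa using this
    rw [h1, add_zero]; rfl
  · intro h
    have := congrArg (fun f : Equiv.Perm (Fin p) => f 0) h
    simp at this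
    exact ha this

section
variable {F : Type*} [Field F] {V : Type*} [AddCommGroup V] [Module F V]
variable {P : Type*} [Group P]

theorem tr_cross (ρ : P →* Module.End F V) (hinj : Function.Injective ρ) (hirr : Irr ρ)
    (p : ℕ) (hp : p.Prime) (c h : P) (hc : c ∈ Subgroup.center P)
    (hc1 : c ≠ 1) (hcp : c ^ p = 1) (t₀ t : Fin p) (ht : t ≠ t₀) (w : V)
    (hw : w ∈ fixS ρ (c ^ (t : ℕ) * h)) : tr ρ p (c ^ (t₀ : ℕ) * h) w = 0 := by
  have : Fact p.Prime := ⟨hp⟩
  have hco : orderOf c = p := orderOf_eq_prime hcp hc1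
  set u : P := c ^ (t₀ : ℕ) * (c ^ (t : ℕ))⁻¹ with hu
  have huc : u ∈ Subgroup.center P :=
    Subgroup.mul_mem _ (Subgroup.pow_mem _ hc _) (Subgroup.inv_mem _ (Subgroup.pow_mem _ hc _))
  have hu1 : u ≠ 1 := by
    intro h1
    rw [hu, mul_inv_eq_one] at h1
    have := pow_injOn_Iio_orderOf (x := c) (by rw [Set.mem_Iio, hco]; exact t₀.2)
      (by rw [Set.mem_Iio, hco]; exact t.2) h1
    exact ht (Fin.ext this).symm
  have hup : u ^ p = 1 := by
    have hcc : Commute (c ^ (t₀ : ℕ)) ((c ^ (t : ℕ))⁻¹) :=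
      ((Commute.refl c).pow_pow _ _).inv_right
    rw [hu, hcc.mul_pow, inv_pow, ← pow_mul, ← pow_mul, mul_comm _ p, mul_comm _ p, pow_mul,
      pow_mul, hcp, one_pow, one_pow, inv_one, mul_one]
  have hux : c ^ (t₀ : ℕ) * h = u * (c ^ (t : ℕ) * h) := by rw [hu]; group
  have hcomm : Commute u (c ^ (t : ℕ) * h) := (Subgroup.mem_center_iff.mp huc _).symm
  have h2 : tr ρ p (c ^ (t₀ : ℕ) * h) w = tr ρ p u w := by
    rw [tr_apply, tr_apply]
    apply Finset.sum_congr rfl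
    intro k _
    rw [hux, hcomm.mul_pow, rho_mul_apply, fix_pow hw]
  have h3 := tr_mem_fixS ρ p u hup w
  rw [fixS_eq_bot_of_central ρ hinj hirr u huc hu1, Submodule.mem_bot] at h3
  rw [h2, h3]

/-- A finite `p`-group acting faithfully and irreducibly in characteristic prime to `p`, with a
non-cyclic normal abelian subgroup, is imprimitive with `p` blocks. -/
theorem imprim_main [Nontrivial V] [Finite P] (p : ℕ) [Fact p.Prime] (hP : IsPGroup p P)
    (hpF : (p : F) ≠ 0) (ρ : P →* Module.End F V) (hinj : Function.Injective ρ) (hirr : Irr ρ)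
    (A : Subgroup P) (hAn : A.Normal) (hAc : ∀ a ∈ A, ∀ b ∈ A, a * b = b * a)
    (hnc : ¬ IsCyclic A) :
    ∃ (H : Subgroup P) (W : Fin p → Submodule F V), H.index = p ∧
      iSup W = ⊤ ∧ iSupIndep W ∧
      (∀ h ∈ H, ∀ i, ∀ w ∈ W i, ρ h w ∈ W i) ∧
      (∀ i, ∃ h ∈ H, h ≠ 1 ∧ ∀ w ∈ W i, ρ h w = w) ∧
      ∀ g : P, g ∉ H → ∃ σ : Equiv.Perm (Fin p), orderOf σ = p ∧
        ∀ i, ∀ w : V, w ∈ W (σ i) ↔ ∃ u ∈ W i, ρ g u = w := by
  have hp : p.Prime := Fact.out
  have : NeZero p := ⟨hp.ne_zero⟩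
  obtain ⟨z, v, hz1, hzp, hzc, hvp, hvz, hconj⟩ := exists_zv p hP A hAn hAc hnc
  have hzcen : z ∈ Subgroup.center P := Subgroup.mem_center_iff.mpr hzc
  have hzo : orderOf z = p := orderOf_eq_prime hzp hz1
  have hzv : ∀ i : ℕ, z ^ i * v = v * z ^ i := fun i => ((show Commute v z from hzc v).pow_right i).eq.symm
  let W : Fin p → Submodule F V := fun i => fixS ρ (z ^ (i : ℕ) * v)
  have hne : ∀ i : ℕ, z ^ i * v ≠ 1 := by
    intro i h
    apply hvz
    have h1 : v = (z ^ i)⁻¹ := by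
      rw [eq_inv_iff_mul_eq_one, ← hzv i]; exact h
    rw [h1]
    exact Subgroup.inv_mem _ (Subgroup.pow_mem _ (Subgroup.mem_zpowers z) i)
  have hfix : ∀ k, 0 < k → k < p → fixS ρ (z ^ k) = ⊥ := by
    intro k hk0 hkp
    apply fixS_eq_bot_of_central ρ hinj hirr _ (Subgroup.pow_mem _ hzcen k)
    intro h
    have := orderOf_dvd_of_pow_eq_one h
    rw [hzo] at this
    exact absurd (Nat.le_of_dvd hk0 this) (by omega)
  have hsup : iSup W = ⊤ := by
    rw [eq_top_iff]
    intro w _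
    obtain ⟨t, ht, hw⟩ := exists_decomp ρ p hpF v z (hzc v) hvp hzp hp.pos hfix w
    rw [hw]
    apply Submodule.sum_mem
    intro i hi
    have hi' := Finset.mem_range.mp hi
    have h1 : t i ∈ W ⟨i, hi'⟩ := by
      show t i ∈ fixS ρ (z ^ i * v)
      rw [hzv i]
      exact ht i hi
    exact Submodule.mem_iSup_of_mem ⟨i, hi'⟩ h1
  have hind : iSupIndep W := by
    intro i
    rw [Submodule.disjoint_def]
    intro x hx1 hx2
    have hker : (⨆ j, ⨆ (_ : j ≠ i), W j) ≤ LinearMap.ker (tr ρ p (z ^ (i : ℕ) * v)) := by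
      apply iSup₂_le
      intro j hj w hw
      rw [LinearMap.mem_ker]
      exact tr_cross ρ hinj hirr p hp z v hzcen hz1 hzp i j hj w hw
    have h0 := LinearMap.mem_ker.mp (hker hx2)
    have h1 : tr ρ p (z ^ (i : ℕ) * v) x = (p : F) • x := tr_fix ρ p hx1
    rw [h1] at h0
    exact (smul_eq_zero.mp h0).resolve_left hpF
  have hmem : ∀ g : P, v⁻¹ * (g * v * g⁻¹) ∈ Subgroup.zpowers z := by
    intro g
    obtain ⟨c, hc⟩ := hconj g
    rw [hc, inv_mul_cancel_left]
    exact Subgroup.pow_mem _ (Subgroup.mem_zpowers z) c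
  let φ : P →* Subgroup.zpowers z :=
    { toFun := fun g => ⟨v⁻¹ * (g * v * g⁻¹), hmem g⟩
      map_one' := by apply Subtype.ext; simp
      map_mul' := by
        intro g h
        apply Subtype.ext
        show v⁻¹ * (g * h * v * (g * h)⁻¹) = (v⁻¹ * (g * v * g⁻¹)) * (v⁻¹ * (h * v * h⁻¹))
        have hu : ∀ x : P, x * (v⁻¹ * (h * v * h⁻¹)) = (v⁻¹ * (h * v * h⁻¹)) * x := by
          intro x
          obtain ⟨k, hk⟩ := Subgroup.mem_zpowers_iff.mp (hmem h)
          rw [← hk]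
          exact (Commute.zpow_right (hzc x) k)
        calc v⁻¹ * (g * h * v * (g * h)⁻¹)
            = v⁻¹ * (g * v * ((v⁻¹ * (h * v * h⁻¹)) * g⁻¹)) := by group
          _ = v⁻¹ * (g * v * (g⁻¹ * (v⁻¹ * (h * v * h⁻¹)))) := by rw [hu g⁻¹]
          _ = (v⁻¹ * (g * v * g⁻¹)) * (v⁻¹ * (h * v * h⁻¹)) := by simp only [mul_assoc] }
  have hH : ∀ g : P, g ∈ φ.ker ↔ g * v * g⁻¹ = v := by
    intro g
    rw [MonoidHom.mem_ker]
    constructor
    · intro h
      have h1 : v⁻¹ * (g * v * g⁻¹) = 1 := congrArg Subtype.val h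
      exact (inv_mul_eq_one.mp h1).symm
    · intro h
      apply Subtype.ext
      show v⁻¹ * (g * v * g⁻¹) = 1
      rw [h, inv_mul_cancel]
  have hex : ∃ g : P, g ∉ φ.ker := by
    by_contra hcon
    push Not at hcon
    have hvc : v ∈ Subgroup.center P := by
      rw [Subgroup.mem_center_iff]
      intro g
      have h1 := (hH g).mp (hcon g)
      calc g * v = g * v * g⁻¹ * g := by group
        _ = v * g := by rw [h1]
    have hWbot : ∀ i, W i = ⊥ := by
      intro i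
      exact fixS_eq_bot_of_central ρ hinj hirr _
        (Subgroup.mul_mem _ (Subgroup.pow_mem _ hzcen _) hvc) (hne i)
    have h2 : (⊤ : Submodule F V) = ⊥ := by
      rw [← hsup]
      simp [hWbot]
    exact top_ne_bot h2
  have hidx : φ.ker.index = p := by
    rw [Subgroup.index_ker]
    have hdvd : Nat.card φ.range ∣ p := by
      have := Subgroup.card_subgroup_dvd_card φ.range
      rwa [Nat.card_zpowers, hzo] at this
    rcases (Nat.dvd_prime hp).mp hdvd with h1 | h1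
    · exfalso
      obtain ⟨g, hg⟩ := hex
      apply hg
      rw [MonoidHom.mem_ker]
      have h3 : φ.range = ⊥ := Subgroup.card_eq_one.mp h1
      have h2 : φ g ∈ φ.range := ⟨g, rfl⟩
      rw [h3, Subgroup.mem_bot] at h2
      exact h2
    · exact h1
  refine ⟨φ.ker, W, hidx, hsup, hind, ?_, ?_, ?_⟩
  · intro h hh i w hw
    have hv := (hH h).mp hh
    show ρ h w ∈ fixS ρ (z ^ (i : ℕ) * v)
    have hw' : ρ (z ^ (i : ℕ) * v) w = w := mem_fixS.mp hw
    rw [mem_fixS, ← rho_mul_apply]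
    have h1 : h * v = v * h := by
      calc h * v = h * v * h⁻¹ * h := by group
        _ = v * h := by rw [hv]
    have h2 : h * z ^ (i : ℕ) = z ^ (i : ℕ) * h := (Commute.pow_right (hzc h) i)
    have h3 : z ^ (i : ℕ) * v * h = h * (z ^ (i : ℕ) * v) := by
      calc z ^ (i : ℕ) * v * h = z ^ (i : ℕ) * (v * h) := by group
        _ = z ^ (i : ℕ) * (h * v) := by rw [h1]
        _ = (z ^ (i : ℕ) * h) * v := by group
        _ = h * z ^ (i : ℕ) * v := by rw [h2]
        _ = h * (z ^ (i : ℕ) * v) := by group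
    rw [h3, rho_mul_apply, hw']
  · intro i
    refine ⟨z ^ (i : ℕ) * v, ?_, hne i, fun w hw => mem_fixS.mp hw⟩
    rw [hH]
    have e : z ^ (i : ℕ) * v * v * (z ^ (i : ℕ) * v)⁻¹ = z ^ (i : ℕ) * v * (z ^ (i : ℕ))⁻¹ := by
      group
    rw [e, hzv, mul_inv_cancel_right]
  · intro g hg
    obtain ⟨c, hc⟩ := hconj g
    have hzc1 : z ^ c ≠ 1 := by
      intro h
      apply hg
      rw [hH, hc, h, mul_one]
    let a : Fin p := ⟨c % p, Nat.mod_lt _ hp.pos⟩
    have ha : a ≠ 0 := by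
      intro h
      apply hzc1
      have h1 : c % p = 0 := by
        have h2 : (a : ℕ) = ((0 : Fin p) : ℕ) := congrArg Fin.val h
        rw [Fin.val_zero] at h2
        exact h2
      obtain ⟨m, rfl⟩ := Nat.dvd_of_mod_eq_zero h1
      rw [pow_mul, hzp, one_pow]
    refine ⟨Equiv.addRight a, orderOf_addRight p a ha, ?_⟩
    intro i w
    have hval : z ^ ((Equiv.addRight a i : Fin p) : ℕ) = z ^ ((i : ℕ) + c) := by
      show z ^ ((i + a : Fin p) : ℕ) = _
      rw [Fin.val_add, ← pow_eq_pow_mod _ hzp]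
      show z ^ ((i : ℕ) + c % p) = _
      rw [pow_add, pow_add, ← pow_eq_pow_mod _ hzp]
    have hkey : g * (z ^ (i : ℕ) * v) = (z ^ ((i : ℕ) + c) * v) * g := by
      have h1 : g * z ^ (i : ℕ) = z ^ (i : ℕ) * g := (Commute.pow_right (hzc g) i)
      have h2 : v * z ^ c = z ^ c * v := (hzv c).symm
      calc g * (z ^ (i : ℕ) * v) = (g * z ^ (i : ℕ)) * v := by group
        _ = z ^ (i : ℕ) * g * v := by rw [h1]
        _ = z ^ (i : ℕ) * (g * v * g⁻¹) * g := by group
        _ = z ^ (i : ℕ) * (v * z ^ c) * g := by rw [hc]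
        _ = z ^ (i : ℕ) * (z ^ c * v) * g := by rw [h2]
        _ = z ^ ((i : ℕ) + c) * v * g := by rw [pow_add]; group
    show w ∈ fixS ρ (z ^ ((Equiv.addRight a i : Fin p) : ℕ) * v) ↔
      ∃ u ∈ fixS ρ (z ^ (i : ℕ) * v), ρ g u = w
    rw [hval]
    constructor
    · intro hw
      refine ⟨ρ g⁻¹ w, ?_, rho_apply_inv ρ g w⟩
      have hw' := mem_fixS.mp hw
      rw [mem_fixS, ← rho_mul_apply]
      have h1 : z ^ (i : ℕ) * v * g⁻¹ = g⁻¹ * (z ^ ((i : ℕ) + c) * v) := by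
        rw [eq_inv_mul_iff_mul_eq, ← mul_assoc, hkey, mul_assoc, mul_inv_cancel, mul_one]
      rw [h1, rho_mul_apply, hw']
    · rintro ⟨u, hu, rfl⟩
      have hu' := mem_fixS.mp hu
      rw [mem_fixS, ← rho_mul_apply, ← hkey, rho_mul_apply, hu']

end

end Cfsg.Agent.H76.Imprim
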