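import Mathlib
import Cfsg.Agent.H58.BG10Defs3
import Cfsg.Agent.H58.BG10FG
import Cfsg.Agent.Helper55.PRankOne
import Cfsg.Agent.Lib.Helper30.BG129C
import Cfsg.Agent.S0033
import Cfsg.Agent.H76.BG10x

set_option autoImplicit false
set_option linter.style.haveILetI false

/-!
# Bender–Glauberman: primes outside `σ(M) ∪ κ(M)` (S1429)

`bg131 : St1403 G → St1417 G → St1429 G` (helper76): for `p ∈ π(M)` outside `σ(M) ∪ κ(M)` and a
Sylow `p`-subgroup `S` of `M`, `Ω₁(S)` has order at most `p²`, acts without fixed points on `M_σ`,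
and `M_σ` is nilpotent.  The rank-two case is S1417; the cyclic case is Thompson's theorem (S0033).
-/

namespace Cfsg.Agent.H76.BG13

open Cfsg Subgroup Cfsg.Agent.H58.BG10

universe u

variable {G : Type u} [Group G]

/-- S1429 as a `Prop` (without the redundant hypothesis on the type of `M`). -/
def St1429 (G : Type u) [Group G] : Prop :=
  ∀ (M : Subgroup G), IsCoatom M → ∀ (p : ℕ) [Fact p.Prime], p ∣ Nat.card M →
    p ∉ sigma M ∪ kappa M → ∀ S : Sylow p M,
    Nat.card ↥(closure {x : G | x ∈ (S : Subgroup M).map M.subtype ∧ x ^ p = 1}) ≤ p ^ 2 ∧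
      sigmaCore M ⊓ centralizer ((closure {x : G | x ∈ (S : Subgroup M).map M.subtype ∧
        x ^ p = 1} : Subgroup G) : Set G) = ⊥ ∧
      Group.IsNilpotent (sigmaCore M)

/-- `M_σ` is normalized by `M`: conjugation by an element of `M` preserves `M_σ`. -/
theorem conj_mem_sigmaCore {M : Subgroup G} {m y : G} (hm : m ∈ M) (hy : y ∈ sigmaCore M) :
    m * y * m⁻¹ ∈ sigmaCore M := by
  obtain ⟨k, hk, rfl⟩ := hy
  haveI : (piCore (sigma M) ↥M).Normal := inferInstance
  have h1 : (⟨m, hm⟩ : ↥M) * k * (⟨m, hm⟩ : ↥M)⁻¹ ∈ piCore (sigma M) ↥M :=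
    Subgroup.Normal.conj_mem inferInstance k hk _
  exact ⟨_, h1, rfl⟩

/-- The rank-two case. -/
theorem bg131_rank2 [Finite G] (hG : IsMinSimpleOddOrder G) (h96 : St1403 G) (h17 : St1417 G)
    (M : Subgroup G) (hM : IsCoatom M) (p : ℕ) [Fact p.Prime] (hpσ : p ∉ sigma M)
    (S : Sylow p M) (hnc : ¬ IsCyclic ↥(S : Subgroup M)) :
    Nat.card ↥(closure {x : G | x ∈ (S : Subgroup M).map M.subtype ∧ x ^ p = 1}) ≤ p ^ 2 ∧
      sigmaCore M ⊓ centralizer ((closure {x : G | x ∈ (S : Subgroup M).map M.subtype ∧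
        x ^ p = 1} : Subgroup G) : Set G) = ⊥ ∧
      Group.IsNilpotent (sigmaCore M) := by
  have hpp : p.Prime := Fact.out
  have hp2 : p ≠ 2 := by
    rintro rfl
    -- a noncyclic `2`-subgroup is nontrivial, so `2 ∣ |M|`
    rcases S.2.card_eq_or_dvd with h1 | h2
    · haveI : Subsingleton ↥(S : Subgroup M) := (Nat.card_eq_one_iff_unique.mp h1).1
      exact hnc inferInstance
    · exact Cfsg.Agent.H76.BG10.ne_two_of_dvd hG M
        (h2.trans (Subgroup.card_subgroup_dvd_card _)) rfl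
  obtain ⟨S', hS'⟩ : ∃ S' : Subgroup G, S' = (S : Subgroup M).map M.subtype := ⟨_, rfl⟩
  have hS'M : S' ≤ M := by rw [hS']; exact Subgroup.map_subtype_le _
  have e : ↥(S : Subgroup M) ≃* ↥S' := by
    rw [hS']
    exact (S : Subgroup M).equivMapOfInjective M.subtype M.subtype_injective
  have hr1S : ¬ PRankLE p 1 ↥(S : Subgroup M) := fun h =>
    hnc (Cfsg.Agent.Helper55.isCyclic_of_pRankLE_one hp2 S.2 h)
  have hr1S' : ¬ PRankLE p 1 ↥S' := fun h =>
    hr1S (Cfsg.Agent.H76.BG10.pRankLE_of_mulEquiv e.symm h)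
  obtain ⟨A, hAS, hAel, hAc⟩ :=
    Cfsg.Agent.Lib.Helper30.BG12.exists_elem_sq_of_not_pRankLE_one hr1S'
  have hAM : A ≤ M := hAS.trans hS'M
  have hτ : p ∈ tau2 M := by
    refine ⟨hpp, hpσ, ?_, ?_⟩
    · by_contra hr
      exact hpσ (alpha_subset_sigma hG h96 hM ⟨hpp, hr⟩)
    · intro hr
      have h1 := hr (A.subgroupOf M)
        (⟨⟨fun a b => by
          have hc := hAel.1.is_comm.comm (⟨((a : ↥M) : G), Subgroup.mem_subgroupOf.mp a.2⟩ : ↥A)
            ⟨((b : ↥M) : G), Subgroup.mem_subgroupOf.mp b.2⟩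
          have hc' : ((a : ↥M) : G) * ((b : ↥M) : G) = ((b : ↥M) : G) * ((a : ↥M) : G) :=
            congrArg Subtype.val hc
          exact Subtype.ext (Subtype.ext hc')⟩⟩)
        (by
          intro a ha
          exact Subtype.ext (by simpa using hAel.2 (a : G) ha))
      rw [Nat.card_congr (Subgroup.subgroupOfEquivOfLe hAM).toEquiv, hAc, pow_one] at h1
      have : p < p ^ 2 := by
        have := hpp.one_lt
        nlinarith
      omega
  obtain ⟨hnil, hSyl, -, hcent, -⟩ := h17 M hM p hτ A ⟨hAM, hAel, hAc⟩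
  have hchar := ((hSyl S).2 (by rw [← hS']; exact hAS)).1
  have hΩ : closure {x : G | x ∈ (S : Subgroup M).map M.subtype ∧ x ^ p = 1} = A := by
    apply le_antisymm
    · rw [Subgroup.closure_le]
      intro x hx
      exact (hchar x hx.1).mp hx.2
    · intro x hx
      apply Subgroup.subset_closure
      have hxS : x ∈ (S : Subgroup M).map M.subtype := by rw [← hS']; exact hAS hx
      exact ⟨hxS, (hchar x hxS).mpr hx⟩
  rw [hΩ]
  exact ⟨hAc.le, hcent, hnil⟩

/-- The cyclic case. -/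
theorem bg131_cyclic [Finite G] (M : Subgroup G) (p : ℕ) [Fact p.Prime]
    (hpM : p ∣ Nat.card M) (S : Sylow p M) (hcyc : IsCyclic ↥(S : Subgroup M))
    (hfpf : ∀ x : M, x ∈ (S : Subgroup M) → x ≠ 1 → ∀ y ∈ sigmaCore M, y ≠ 1 →
      (x : G) * y ≠ y * x) :
    Nat.card ↥(closure {x : G | x ∈ (S : Subgroup M).map M.subtype ∧ x ^ p = 1}) ≤ p ^ 2 ∧
      sigmaCore M ⊓ centralizer ((closure {x : G | x ∈ (S : Subgroup M).map M.subtype ∧
        x ^ p = 1} : Subgroup G) : Set G) = ⊥ ∧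
      Group.IsNilpotent (sigmaCore M) := by
  classical
  have hpp : p.Prime := Fact.out
  obtain ⟨S', hS'⟩ : ∃ S' : Subgroup G, S' = (S : Subgroup M).map M.subtype := ⟨_, rfl⟩
  obtain ⟨Ω, hΩ⟩ : ∃ Ω : Subgroup G,
      Ω = closure {x : G | x ∈ (S : Subgroup M).map M.subtype ∧ x ^ p = 1} := ⟨_, rfl⟩
  rw [← hΩ]
  have hS'M : S' ≤ M := by rw [hS']; exact Subgroup.map_subtype_le _
  -- an element of order `p` of `S`
  have hSne : (S : Subgroup M) ≠ ⊥ := S.ne_bot_of_dvd_card hpM
  have hpS : p ∣ Nat.card ↥(S : Subgroup M) := by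
    rcases S.2.card_eq_or_dvd with h1 | h2
    · exact absurd ((Subgroup.card_eq_one).mp h1) hSne
    · exact h2
  obtain ⟨a, ha⟩ := exists_prime_orderOf_dvd_card' p hpS
  have ha1 : (a : ↥M) ≠ 1 := by
    intro h
    have : a = 1 := Subtype.ext h
    rw [this, orderOf_one] at ha
    exact hpp.one_lt.ne ha
  have hap : ((a : ↥M) : G) ^ p = 1 := by
    have h1 : a ^ p = 1 := by
      have := pow_orderOf_eq_one a
      rwa [ha] at this
    have h2 := congrArg (fun z : ↥(S : Subgroup M) => ((z : ↥M) : G)) h1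
    simpa using h2
  have haΩ : ((a : ↥M) : G) ∈ Ω := by
    rw [hΩ]
    exact Subgroup.subset_closure ⟨⟨(a : ↥M), a.2, rfl⟩, hap⟩
  -- the centralizer
  have hcent : sigmaCore M ⊓ centralizer (Ω : Set G) = ⊥ := by
    rw [Subgroup.eq_bot_iff_forall]
    intro y hy
    by_contra hy1
    have h1 := Subgroup.mem_centralizer_iff.mp hy.2 _ haΩ
    exact hfpf (a : ↥M) a.2 ha1 y hy.1 hy1 h1
  -- the order of `Ω`
  have hΩS : Ω ≤ S' := by
    rw [hΩ, hS', Subgroup.closure_le]
    intro x hx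
    exact hx.1
  have hcommS : ∀ x ∈ S', ∀ y ∈ S', x * y = y * x := by
    intro x hx y hy
    rw [hS'] at hx hy
    obtain ⟨x', hx', rfl⟩ := hx
    obtain ⟨y', hy', rfl⟩ := hy
    have h1 : (⟨x', hx'⟩ : ↥(S : Subgroup M)) * ⟨y', hy'⟩ = ⟨y', hy'⟩ * ⟨x', hx'⟩ :=
      (IsCyclic.commGroup (α := ↥(S : Subgroup M))).mul_comm _ _
    have h2 := congrArg (fun z : ↥(S : Subgroup M) => ((z : ↥M) : G)) h1
    simpa using h2
  have hΩp : ∀ x ∈ Ω, x ^ p = 1 := by
    intro x hx
    have key : ∀ x ∈ Ω, x ∈ S' ∧ x ^ p = 1 := by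
      intro x hx
      rw [hΩ] at hx
      induction hx using Subgroup.closure_induction with
      | mem x hx => exact ⟨by rw [hS']; exact hx.1, hx.2⟩
      | one => exact ⟨one_mem _, one_pow _⟩
      | mul x y _ _ ihx ihy =>
        refine ⟨mul_mem ihx.1 ihy.1, ?_⟩
        have hc : Commute x y := hcommS x ihx.1 y ihy.1
        rw [hc.mul_pow, ihx.2, ihy.2, one_mul]
      | inv x _ ih => exact ⟨inv_mem ih.1, by rw [inv_pow, ih.2, inv_one]⟩
    exact (key x hx).2
  have hcard : Nat.card Ω ≤ p := by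
    haveI : IsCyclic ↥S' := by
      rw [hS']
      exact isCyclic_of_surjective
        ((S : Subgroup M).equivMapOfInjective M.subtype M.subtype_injective)
        (MulEquiv.surjective _)
    haveI : Fintype ↥S' := Fintype.ofFinite _
    have h1 : Nat.card Ω = Nat.card (Ω.subgroupOf S') :=
      (Nat.card_congr (Subgroup.subgroupOfEquivOfLe hΩS).toEquiv).symm
    have h2 : Nat.card (Ω.subgroupOf S') =
        (Finset.univ.filter (fun z : ↥S' => z ∈ Ω.subgroupOf S')).card := by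
      rw [Nat.card_eq_fintype_card, Fintype.card_subtype]
    have h3 : (Finset.univ.filter (fun z : ↥S' => z ∈ Ω.subgroupOf S')) ⊆
        Finset.univ.filter (fun z : ↥S' => z ^ p = 1) := by
      intro z hz
      rw [Finset.mem_filter] at hz ⊢
      refine ⟨hz.1, ?_⟩
      have h4 : (z : G) ∈ Ω := Subgroup.mem_subgroupOf.mp hz.2
      exact Subtype.ext (by simpa using hΩp _ h4)
    have h5 := IsCyclic.card_pow_eq_one_le (α := ↥S') hpp.pos
    rw [h1, h2]
    exact (Finset.card_le_card h3).trans h5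
  refine ⟨hcard.trans (by nlinarith [hpp.one_lt]), hcent, ?_⟩
  -- nilpotency of `M_σ` by Thompson's theorem
  obtain ⟨K₀, hK₀⟩ : ∃ K₀ : Subgroup ↥M, K₀ = piCore (sigma M) ↥M := ⟨_, rfl⟩
  haveI hK₀n : K₀.Normal := by rw [hK₀]; infer_instance
  have hmemK : ∀ k : ↥K₀, ((k : ↥M) : G) ∈ sigmaCore M := by
    intro k
    exact ⟨(k : ↥M), by rw [← hK₀]; exact k.2, rfl⟩
  have hnilK : Group.IsNilpotent ↥K₀ := by
    by_cases hbot : K₀ = ⊥
    · haveI : Subsingleton ↥K₀ := by rw [hbot]; infer_instance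
      infer_instance
    · obtain ⟨φ, hφ⟩ : ∃ φ : MulAut ↥K₀, φ = MulAut.conjNormal (a : ↥M) := ⟨_, rfl⟩
      have happly : ∀ k : ↥K₀, ((φ k : ↥K₀) : ↥M) = (a : ↥M) * k * (a : ↥M)⁻¹ := by
        intro k; rw [hφ]; exact MulAut.conjNormal_apply _ _
      have hfix : ∀ k : ↥K₀, φ k = k → k = 1 := by
        intro k hk
        by_contra hk1
        have h1 : (a : ↥M) * k * (a : ↥M)⁻¹ = (k : ↥M) := by rw [← happly, hk]
        have h2 : (a : ↥M) * (k : ↥M) = (k : ↥M) * (a : ↥M) := by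
          calc (a : ↥M) * (k : ↥M) = ((a : ↥M) * k * (a : ↥M)⁻¹) * (a : ↥M) := by group
            _ = (k : ↥M) * (a : ↥M) := by rw [h1]
        have h3 : (((a : ↥M)) : G) * ((k : ↥M) : G) = ((k : ↥M) : G) * ((a : ↥M) : G) := by
          have := congrArg (fun z : ↥M => (z : G)) h2
          simpa using this
        refine hfpf (a : ↥M) a.2 ha1 _ (hmemK k) ?_ h3
        intro h
        exact hk1 (Subtype.ext (Subtype.ext h))
      have hord : orderOf φ = p := by
        apply orderOf_eq_prime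
        · rw [hφ, ← map_pow]
          have h1 : (a : ↥M) ^ p = 1 := by
            have h1 : a ^ p = 1 := by
              have := pow_orderOf_eq_one a
              rwa [ha] at this
            have := congrArg (fun z : ↥(S : Subgroup M) => (z : ↥M)) h1
            simpa using this
          rw [h1, map_one]
        · intro h1
          apply hbot
          rw [Subgroup.eq_bot_iff_forall]
          intro k hk
          have h2 : (⟨k, hk⟩ : ↥K₀) = 1 := hfix ⟨k, hk⟩ (by rw [h1]; rfl)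
          exact congrArg Subtype.val h2
      exact Cfsg.Agent.S0033.result φ (fun k hk => hfix k hk) p hpp hord
  haveI := hnilK
  have e : ↥K₀ ≃* ↥(sigmaCore M) := by
    rw [hK₀]
    exact (piCore (sigma M) ↥M).equivMapOfInjective M.subtype M.subtype_injective
  exact Cfsg.Agent.H76.BG10.isNilpotent_of_injective e.symm.toMonoidHom e.symm.injective

/-- **S1429**. -/
theorem bg131 [Finite G] (hG : IsMinSimpleOddOrder G) (h96 : St1403 G) (h17 : St1417 G) :
    St1429 G := by
  intro M hM p _ hpM hp S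
  have hpp : p.Prime := Fact.out
  have hpσ : p ∉ sigma M := fun h => hp (Or.inl h)
  have hpκ : p ∉ kappa M := fun h => hp (Or.inr h)
  by_cases hcyc : IsCyclic ↥(S : Subgroup M)
  · apply bg131_cyclic M p hpM S hcyc
    -- transfer the fixed-point-free action from the Sylow subgroup given by `p ∉ κ(M)`
    have h1 : ¬ ∀ P : Sylow p M, IsCyclic P ∧
        ∃ x : M, x ∈ (P : Subgroup M) ∧ x ≠ 1 ∧ ∃ y ∈ sigmaCore M, y ≠ 1 ∧ (x : G) * y = y * x :=
      fun h => hpκ ⟨hpp, hpM, hpσ, h⟩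
    push Not at h1
    obtain ⟨P₀, hP₀⟩ := h1
    obtain ⟨m, hm⟩ := MulAction.exists_smul_eq M S P₀
    have hP₀c : IsCyclic ↥(P₀ : Subgroup M) := by
      rw [← hm]
      exact isCyclic_of_surjective (S.equivSMul m) (MulEquiv.surjective _)
    intro x hxS hx1 y hy hy1 hxy
    have hxP : m * x * m⁻¹ ∈ (P₀ : Subgroup M) := by
      rw [← hm, Sylow.coe_subgroup_smul, Subgroup.mem_pointwise_smul_iff_inv_smul_mem]
      simpa [MulAut.smul_def, mul_assoc] using hxS
    have hx1' : m * x * m⁻¹ ≠ 1 := by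
      intro h
      apply hx1
      have : x = m⁻¹ * (m * x * m⁻¹) * m := by group
      rw [this, h]; group
    refine hP₀ hP₀c (m * x * m⁻¹) hxP hx1' ((m : G) * y * (m : G)⁻¹)
      (conj_mem_sigmaCore m.2 hy) ?_ ?_
    · intro h
      apply hy1
      have : y = (m : G)⁻¹ * ((m : G) * y * (m : G)⁻¹) * (m : G) := by group
      rw [this, h]; group
    · push_cast
      have : (m : G) * (x : G) * (m : G)⁻¹ * ((m : G) * y * (m : G)⁻¹) =
          (m : G) * ((x : G) * y) * (m : G)⁻¹ := by group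
      rw [this, hxy]; group
  · exact bg131_rank2 hG h96 h17 M hM p hpσ S hcyc

end Cfsg.Agent.H76.BG13
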