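import Mathlib
import Cfsg.Agent.H58.BG10Defs3
import Cfsg.Agent.H57.BG1218Defs
import Cfsg.Agent.H47.BG1216Defs2

set_option autoImplicit false

/-!
# Bender–Glauberman Theorem 13.4 (S1428): the statement and its pieces as `Prop`s (helper76)

`p ∈ τ₁(M)`, `P ≤ E` of order `p`, `R ≤ C_E(P)` of prime order: `C_{M_σ}(P) ≤ C_{M_σ}(R)`.
-/

namespace Cfsg.Agent.H76.BG134

open Cfsg Subgroup Cfsg.Agent.H58.BG10

universe u

/-- S1428 without `hG`. -/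
def St1428 (G : Type u) [Group G] : Prop :=
  ∀ (M : Subgroup G), IsCoatom M → ∀ E : Subgroup G, IsComplIn E (sigmaCore M) M →
    ∀ (p : ℕ), p ∈ tau1 M → ∀ P : Subgroup G, P ≤ E → Nat.card P = p →
    ∀ R : Subgroup G, R ≤ E ⊓ centralizer (P : Set G) → (Nat.card R).Prime →
      sigmaCore M ⊓ centralizer (P : Set G) ≤ sigmaCore M ⊓ centralizer (R : Set G)

/-! ### Local pieces (no minimal simple group) -/

/-- (MF) the module fact: an abelian group `Q` and an element `x` of prime order normalizing `Q`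
with `C_Q(x) = 1` act on an abelian group `W` of order prime to `|Q|`; if `C_W(Q) = 1` and
`C_W(x) = 1` then `W = 1`. -/
def StMF (G : Type u) [Group G] : Prop :=
  ∀ (W Q : Subgroup G) (x : G),
    (∀ a ∈ W, ∀ b ∈ W, a * b = b * a) → (∀ a ∈ Q, ∀ b ∈ Q, a * b = b * a) →
    Q ≤ normalizer (W : Set G) → x ∈ normalizer (W : Set G) → x ∈ normalizer (Q : Set G) →
    (Nat.card W).Coprime (Nat.card Q) → (orderOf x).Prime →
    (∀ a ∈ Q, x * a = a * x → a = 1) →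
    (∀ w ∈ W, (∀ a ∈ Q, a * w = w * a) → w = 1) →
    (∀ w ∈ W, x * w = w * x → w = 1) → W = ⊥

/-- (FR) `T` a noncyclic `s`-group (`s` odd) acted on by `Q ⋊ R`, `Q` abelian, `R` of prime
order, `C_Q(R) = 1`, `s ∤ |Q||R|`; if `C_T(Q)` and `C_T(R)` are cyclic then `C_T(QR) = 1`. -/
def StFR (G : Type u) [Group G] : Prop :=
  ∀ (s : ℕ) [Fact s.Prime] (T Q R : Subgroup G), s ≠ 2 → IsPGroup s T → ¬ IsCyclic T →
    (∀ a ∈ Q, ∀ b ∈ Q, a * b = b * a) → Q ≤ normalizer (T : Set G) →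
    R ≤ normalizer (T : Set G) → R ≤ normalizer (Q : Set G) → (Nat.card R).Prime →
    ¬ s ∣ Nat.card Q → ¬ s ∣ Nat.card R → Q ⊓ centralizer (R : Set G) = ⊥ →
    IsCyclic ↥(T ⊓ centralizer (Q : Set G)) → IsCyclic ↥(T ⊓ centralizer (R : Set G)) →
    T ⊓ centralizer (Q : Set G) ⊓ centralizer (R : Set G) = ⊥

/-- (FR1) same action; if `C_T(R) = 1` then `Q` centralizes `T`. -/
def StFR1 (G : Type u) [Group G] : Prop :=
  ∀ (s : ℕ) [Fact s.Prime] (T Q R : Subgroup G), IsPGroup s T →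
    (∀ a ∈ Q, ∀ b ∈ Q, a * b = b * a) → Q ≤ normalizer (T : Set G) →
    R ≤ normalizer (T : Set G) → R ≤ normalizer (Q : Set G) → (Nat.card R).Prime →
    ¬ s ∣ Nat.card Q → ¬ s ∣ Nat.card R → Q ⊓ centralizer (R : Set G) = ⊥ →
    T ⊓ centralizer (R : Set G) = ⊥ → T ≤ centralizer (Q : Set G)

/-- (CYCAUT) a group `R` of order prime to `q` normalizing a cyclic `q`-group `Q` and centralizing
a nontrivial subgroup of `Q` centralizes `Q`. -/
def StCycAut (G : Type u) [Group G] : Prop :=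
  ∀ (q : ℕ) [Fact q.Prime] (Q R : Subgroup G), IsPGroup q Q → IsCyclic Q →
    R ≤ normalizer (Q : Set G) → ¬ q ∣ Nat.card R →
    ∀ X : Subgroup G, X ≤ Q → X ≠ ⊥ → R ≤ centralizer (X : Set G) → R ≤ centralizer (Q : Set G)

/-! ### Structure pieces -/

/-- (COMPLGE) every `σ(M)'`-subgroup of `M` lies in a complement of `M_σ`. -/
def StComplGe (G : Type u) [Group G] : Prop :=
  ∀ (M : Subgroup G), IsCoatom M → ∀ Y : Subgroup G, Y ≤ M →
    (∀ p : ℕ, p.Prime → p ∣ Nat.card Y → p ∉ sigma M) →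
    ∃ E : Subgroup G, IsComplIn E (sigmaCore M) M ∧ Y ≤ E

/-- (TAU3HALL) a complement `E` of `M_σ` has a cyclic normal Hall `τ₃(M)`-subgroup `E₃ ≤ E'`
containing every `τ₃(M)`-subgroup of `E`. -/
def StTau3Hall (G : Type u) [Group G] : Prop :=
  ∀ (M : Subgroup G), IsCoatom M → ∀ E : Subgroup G, IsComplIn E (sigmaCore M) M →
    ∃ E₃ : Subgroup G, E₃ ≤ E ∧ IsCyclic E₃ ∧ E₃ ≤ ⁅E, E⁆ ∧ E ≤ normalizer (E₃ : Set G) ∧
      (∀ p : ℕ, p.Prime → p ∣ Nat.card E₃ → p ∈ tau3 M) ∧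
      ∀ Q : Subgroup G, Q ≤ E → (∀ p : ℕ, p.Prime → p ∣ Nat.card Q → p ∈ tau3 M) → Q ≤ E₃

/-- (TAU2A) for `p ∈ τ₂(M)` a complement `E` of `M_σ` has a normal elementary abelian subgroup
of order `p²` containing every subgroup of order `p` of `E`. -/
def StTau2A (G : Type u) [Group G] : Prop :=
  ∀ (M : Subgroup G), IsCoatom M → ∀ E : Subgroup G, IsComplIn E (sigmaCore M) M →
    ∀ (p : ℕ) [Fact p.Prime], p ∈ tau2 M →
    ∃ A : Subgroup G, A ≤ E ∧ IsElementaryAbelian p A ∧ Nat.card A = p ^ 2 ∧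
      E ≤ normalizer (A : Set G) ∧ ∀ X : Subgroup G, X ≤ E → Nat.card X = p → X ≤ A

/-- (COMMON) `q ∈ σ(M) ∩ σ(H)`, `H ≠ M`, `X ≤ M ∩ H` a nontrivial `q`-group with
`N_G(X) ≤ H`: `M` and `H` share a Sylow `q`-subgroup `S ≥ X` of `G` with `N_G(S) ≤ M ∩ H`. -/
def StCommon (G : Type u) [Group G] : Prop :=
  ∀ (M H : Subgroup G), IsCoatom M → IsCoatom H → H ≠ M →
    ∀ (q : ℕ) [Fact q.Prime], q ∈ sigma M → q ∈ sigma H →
    ∀ X : Subgroup G, X ≤ M → IsPGroup q X → X ≠ ⊥ → normalizer (X : Set G) ≤ H →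
      ∃ S : Sylow q G, X ≤ (S : Subgroup G) ∧ (S : Subgroup G) ≤ M ∧ (S : Subgroup G) ≤ H ∧
        normalizer ((S : Subgroup G) : Set G) ≤ M ∧ normalizer ((S : Subgroup G) : Set G) ≤ H

/-- (CFA) core facts A: non-conjugate `N`, `H` with a common Sylow `q`-subgroup `S` of `G`,
`N_G(S) ≤ N ∩ H`. -/
def StCFA (G : Type u) [Group G] : Prop :=
  ∀ (N H : Subgroup G), IsCoatom N → IsCoatom H →
    (∀ g : G, H ≠ N.map (MulAut.conj g).toMonoidHom) →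
    ∀ (q : ℕ) [Fact q.Prime] (S : Sylow q G), (S : Subgroup G) ≤ N → (S : Subgroup G) ≤ H →
      normalizer ((S : Subgroup G) : Set G) ≤ N → normalizer ((S : Subgroup G) : Set G) ≤ H →
      (q ∈ sigma N ∧ q ∉ alpha N) ∧ IsMulCommutative (S : Subgroup G) ∧
      (∀ n ∈ N, ∃ a ∈ alphaCore N, ∃ d ∈ normalizer ((S : Subgroup G) : Set G), n = a * d) ∧
      RankLE 1 ↥(alphaCore N ⊓ centralizer ((S : Subgroup G) : Set G))

/-- (CFB) core facts B. -/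
def StCFB (G : Type u) [Group G] : Prop :=
  ∀ (N H : Subgroup G), IsCoatom N → IsCoatom H →
    (∀ g : G, H ≠ N.map (MulAut.conj g).toMonoidHom) →
    ∀ (q : ℕ) [Fact q.Prime] (S : Sylow q G), (S : Subgroup G) ≤ N → (S : Subgroup G) ≤ H →
      normalizer ((S : Subgroup G) : Set G) ≤ N → normalizer ((S : Subgroup G) : Set G) ≤ H →
      N ⊓ H = normalizer ((S : Subgroup G) : Set G) ∧ alphaCore N ≠ ⊥ ∧
      (∀ t ∈ alpha N, t ∈ beta N) ∧ (∀ r ∈ tau1 H, r ∈ tau1 N ∨ r ∈ beta N)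

/-- (TL) `p ∈ τ₁(M)`, `P ≤ M ∩ L` of order `p`, `X ≤ M` a nontrivial `q`-group, `q ∈ σ(M)`,
`N_G(X) ≤ L ≠ M`: if `q ∉ σ(L)` or `p ∉ α(L)` then `p ∈ τ₁(L)`. -/
def StTL (G : Type u) [Group G] : Prop :=
  ∀ (M L : Subgroup G), IsCoatom M → IsCoatom L → L ≠ M →
    ∀ (p : ℕ), p ∈ tau1 M → ∀ P : Subgroup G, P ≤ M → P ≤ L → Nat.card P = p →
    ∀ (q : ℕ) [Fact q.Prime], q ∈ sigma M → ∀ X : Subgroup G, X ≤ M → IsPGroup q X → X ≠ ⊥ →
      normalizer (X : Set G) ≤ L → (q ∉ sigma L ∨ p ∉ alpha L) → p ∈ tau1 L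

/-- (NC) `p ∈ σ(H)` with noncommutative Sylow `p`-subgroups of `G`, `r ∈ τ₁(H)`: a subgroup
`R ≤ H` of order `r` centralizes no elementary abelian subgroup of order `p²` of `H`. -/
def StNC (G : Type u) [Group G] : Prop :=
  ∀ (H : Subgroup G), IsCoatom H → ∀ (p : ℕ) [Fact p.Prime], p ∈ sigma H →
    (∀ S : Sylow p G, ¬ IsMulCommutative (S : Subgroup G)) →
    ∀ (r : ℕ), r ∈ tau1 H → ∀ R : Subgroup G, R ≤ H → Nat.card R = r →
    ∀ A : Subgroup G, A ≤ H → IsElementaryAbelian p A → Nat.card A = p ^ 2 →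
      ¬ R ≤ centralizer (A : Set G)

/-- (FRA) the `α`-case: `p ∈ α(H)`, `r ∈ τ₁(H)`, `Q` an abelian `α(H)'`-subgroup of `H`
normalized by `R` (order `r`) with `C_Q(R) = 1` and `C_{H_α}(Q)` of rank `≤ 1`: no subgroup
`P ≤ H` of order `p` centralizes both `Q` and `R`. -/
def StFRA (G : Type u) [Group G] : Prop :=
  ∀ (H : Subgroup G), IsCoatom H → ∀ (p : ℕ) [Fact p.Prime], p ∈ alpha H →
    ∀ P : Subgroup G, P ≤ H → Nat.card P = p →
    ∀ (r : ℕ), r ∈ tau1 H → ∀ R : Subgroup G, R ≤ H → Nat.card R = r →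
    ∀ Q : Subgroup G, Q ≤ H → (∀ a ∈ Q, ∀ b ∈ Q, a * b = b * a) →
      (∀ t : ℕ, t.Prime → t ∣ Nat.card Q → t ∉ alpha H) → R ≤ normalizer (Q : Set G) →
      Q ⊓ centralizer (R : Set G) = ⊥ →
      RankLE 1 ↥(alphaCore H ⊓ centralizer (Q : Set G)) →
      P ≤ centralizer (Q : Set G) → P ≤ centralizer (R : Set G) → False

/-! ### The case analysis -/

/-- (G3) `p ∈ τ₁(M)` not ideal, `X ≤ M_σ` of prime order `q`, `A` elementary abelian of order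
`p²` with `A ∩ M ≠ 1`: `A` does not centralize `X`. -/
def StG3 (G : Type u) [Group G] : Prop :=
  ∀ (M : Subgroup G), IsCoatom M → ∀ (p : ℕ) [Fact p.Prime], p ∈ tau1 M → ¬ IsIdealPrime p G →
    ∀ (q : ℕ) [Fact q.Prime] (X A : Subgroup G), X ≤ sigmaCore M → Nat.card X = q →
      IsElementaryAbelian p A → Nat.card A = p ^ 2 → A ⊓ M ≠ ⊥ →
      ¬ A ≤ centralizer (X : Set G)

/-- The configuration: `p ∈ τ₁(M)`, `P ≤ M` of order `p`, `N_G(P) ≤ H`, `R ≤ C_G(P)` of prime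
order `r ∉ σ(M)`, `Q ≤ C_{M_σ}(P)` a `q`-group normalized but not centralized by `R`. -/
def Config {G : Type u} [Group G] (M H : Subgroup G) (p r q : ℕ) (P R Q : Subgroup G) : Prop :=
  IsCoatom M ∧ IsCoatom H ∧ p ∈ tau1 M ∧ P ≤ M ∧ Nat.card P = p ∧
    normalizer (P : Set G) ≤ H ∧ r.Prime ∧ r ∉ sigma M ∧ Nat.card R = r ∧
    R ≤ centralizer (P : Set G) ∧ q.Prime ∧ IsPGroup q Q ∧ Q ≤ sigmaCore M ∧
    Q ≤ centralizer (P : Set G) ∧ R ≤ normalizer (Q : Set G) ∧ ¬ R ≤ centralizer (Q : Set G)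

/-- (GCA1) in a configuration, `p ∈ σ(H)`. -/
def StGCA1 (G : Type u) [Group G] : Prop :=
  ∀ (M H : Subgroup G) (p r q : ℕ) (P R Q : Subgroup G), Config M H p r q P R Q → p ∈ sigma H

/-- (GCA2) in a configuration with `p ∈ σ(H)`: `r ∈ τ₁(H)` and `q ∈ σ(H) ∖ α(H)` or
`q ∈ τ₃(H)`. -/
def StGCA2 (G : Type u) [Group G] : Prop :=
  ∀ (M H : Subgroup G) (p r q : ℕ) (P R Q : Subgroup G), Config M H p r q P R Q →
    p ∈ sigma H → r ∈ tau1 H ∧ ((q ∈ sigma H ∧ q ∉ alpha H) ∨ q ∈ tau3 H)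

/-- (K3B1) case III, first half. -/
def StK3B1 (G : Type u) [Group G] : Prop :=
  ∀ (M H : Subgroup G), IsCoatom M → IsCoatom H → ∀ (p : ℕ) [Fact p.Prime], p ∈ tau1 M →
    ∀ P : Subgroup G, P ≤ M → P ≤ H → Nat.card P = p → p ∈ sigma H →
    ∀ (q : ℕ) [Fact q.Prime], q ∈ sigma M → q ∈ tau3 H → ∀ (r : ℕ) [Fact r.Prime], r ∈ tau1 H →
    ∀ X R : Subgroup G, X ≤ M → X ≤ H → Nat.card X = q → R ≤ H → Nat.card R = r →
      R ≤ normalizer (X : Set G) → ¬ R ≤ centralizer (X : Set G) →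
      P ≤ centralizer (X : Set G) → P ≤ centralizer (R : Set G) →
      ∃ E L P₃ : Subgroup G, IsComplIn E (sigmaCore H) H ∧ X ≤ E ∧ R ≤ E ∧ IsCoatom L ∧
        centralizer (X : Set G) ≤ L ∧ p ∈ tau1 L ∧ P₃ ≤ sigmaCore H ∧ Nat.card P₃ = p ∧
        P₃ ≤ centralizer (E : Set G)

/-- (K3B2) case III, second half: `p ∈ σ(H) ∖ α(H)`, `E` a complement of `H_σ` containing the
Frobenius group `XR` (`|X| = q`, `|R| = r ∈ τ₁(H)`), `C_G(X) ≤ L` with `p ∈ τ₁(L)`: no subgroup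
of order `p` of `H_σ` centralizes `E`. -/
def StK3B2 (G : Type u) [Group G] : Prop :=
  ∀ (H : Subgroup G), IsCoatom H → ∀ (p : ℕ) [Fact p.Prime], p ∈ sigma H → p ∉ alpha H →
    ∀ E : Subgroup G, IsComplIn E (sigmaCore H) H →
    ∀ (q : ℕ) [Fact q.Prime] (r : ℕ) [Fact r.Prime], r ∈ tau1 H →
    ∀ X R : Subgroup G, X ≤ E → R ≤ E → Nat.card X = q → Nat.card R = r →
      R ≤ normalizer (X : Set G) → ¬ R ≤ centralizer (X : Set G) →
    ∀ L : Subgroup G, IsCoatom L → centralizer (X : Set G) ≤ L → p ∈ tau1 L →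
    ∀ P₃ : Subgroup G, P₃ ≤ sigmaCore H → Nat.card P₃ = p → ¬ P₃ ≤ centralizer (E : Set G)

/-- (K3) case III is contradictory. -/
def StK3 (G : Type u) [Group G] : Prop :=
  ∀ (M H : Subgroup G), IsCoatom M → IsCoatom H → ∀ (p : ℕ) [Fact p.Prime], p ∈ tau1 M →
    ∀ P : Subgroup G, P ≤ M → P ≤ H → Nat.card P = p → p ∈ sigma H →
    ∀ (q : ℕ) [Fact q.Prime], q ∈ sigma M → q ∈ tau3 H → ∀ (r : ℕ) [Fact r.Prime], r ∈ tau1 H →
    ∀ X R : Subgroup G, X ≤ M → X ≤ H → Nat.card X = q → R ≤ H → Nat.card R = r →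
      R ≤ normalizer (X : Set G) → ¬ R ≤ centralizer (X : Set G) →
      P ≤ centralizer (X : Set G) → P ≤ centralizer (R : Set G) → False

/-- (KCB) the core setting, case (β): `C_G(Q₁) ≤ H`. -/
def StKCB (G : Type u) [Group G] : Prop :=
  ∀ (N H : Subgroup G), IsCoatom N → IsCoatom H →
    (∀ g : G, H ≠ N.map (MulAut.conj g).toMonoidHom) →
    ∀ (q : ℕ) [Fact q.Prime] (S : Sylow q G), (S : Subgroup G) ≤ N → (S : Subgroup G) ≤ H →
      normalizer ((S : Subgroup G) : Set G) ≤ N → normalizer ((S : Subgroup G) : Set G) ≤ H →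
    ∀ (p : ℕ) [Fact p.Prime], p ∈ tau1 N → ∀ P : Subgroup G, P ≤ N → Nat.card P = p →
      centralizer (P : Set G) ≤ H →
    ∀ (r : ℕ) [Fact r.Prime], r ∈ tau1 N → ∀ R : Subgroup G, R ≤ N → Nat.card R = r →
      R ≤ centralizer (P : Set G) →
    ∀ Q₁ : Subgroup G, Q₁ ≤ (S : Subgroup G) → Q₁ ≠ ⊥ → R ≤ normalizer (Q₁ : Set G) →
      Q₁ ⊓ centralizer (R : Set G) = ⊥ → centralizer (Q₁ : Set G) ≤ H → False

/-- (KC) the core setting is contradictory. -/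
def StKC (G : Type u) [Group G] : Prop :=
  ∀ (N H : Subgroup G), IsCoatom N → IsCoatom H →
    (∀ g : G, H ≠ N.map (MulAut.conj g).toMonoidHom) →
    ∀ (q : ℕ) [Fact q.Prime] (S : Sylow q G), (S : Subgroup G) ≤ N → (S : Subgroup G) ≤ H →
      normalizer ((S : Subgroup G) : Set G) ≤ N → normalizer ((S : Subgroup G) : Set G) ≤ H →
    ∀ (p : ℕ) [Fact p.Prime], p ∈ tau1 N → ∀ P : Subgroup G, P ≤ N → Nat.card P = p →
      p ∈ sigma H → centralizer (P : Set G) ≤ H →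
    ∀ (r : ℕ) [Fact r.Prime], r ∈ tau1 H → ∀ R : Subgroup G, R ≤ N → R ≤ H → Nat.card R = r →
      R ≤ centralizer (P : Set G) →
    ∀ Q₁ : Subgroup G, Q₁ ≤ (S : Subgroup G) → Q₁ ≠ ⊥ → R ≤ normalizer (Q₁ : Set G) →
      Q₁ ⊓ centralizer (R : Set G) = ⊥ → P ≤ centralizer (Q₁ : Set G) → False

/-- (KI) case I is contradictory. -/
def StKI (G : Type u) [Group G] : Prop :=
  ∀ (M H : Subgroup G) (p r q : ℕ) (P R Q : Subgroup G), Config M H p r q P R Q → R ≤ M →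
    p ∈ sigma H → r ∈ tau1 H → q ∈ sigma H → False

end Cfsg.Agent.H76.BG134
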