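import Mathlib
import Cfsg.Agent.H76.PermSolvable
import Cfsg.Agent.H97.Ord120

set_option autoImplicit false

namespace Cfsg.Agent.H76.AutSol

open scoped commutatorElement

variable {𝒜 : Type*} [Group 𝒜] {X : Type*} [Group X]

/-- The action becomes trivial on some term of the derived series. -/
def Sol {M : Type*} [Group M] (f : 𝒜 →* M) : Prop := ∃ n, derivedSeries 𝒜 n ≤ f.ker

theorem sol_of_isSolvable {M : Type*} [Group M] (f : 𝒜 →* M) (h : Group.IsSolvable M) : Sol f := by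
  obtain ⟨n, hn⟩ := h.solvable
  refine ⟨n, fun a ha => ?_⟩
  rw [MonoidHom.mem_ker]
  have h1 : f a ∈ (derivedSeries 𝒜 n).map f := Subgroup.mem_map_of_mem f ha
  have h2 := map_derivedSeries_le_derivedSeries f n h1
  rw [hn, Subgroup.mem_bot] at h2
  exact h2

theorem sol_of_isSolvable_range {M : Type*} [Group M] (f : 𝒜 →* M)
    (h : Group.IsSolvable f.range) : Sol f := by
  obtain ⟨n, hn⟩ := sol_of_isSolvable f.rangeRestrict h
  refine ⟨n, fun a ha => ?_⟩
  have h1 := hn ha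
  rw [MonoidHom.mem_ker] at h1 ⊢
  have h2 := congrArg Subtype.val h1
  exact h2

theorem isSolvable_of_sol_id (h : Sol (MonoidHom.id 𝒜)) : Group.IsSolvable 𝒜 := by
  obtain ⟨n, hn⟩ := h
  rw [Group.isSolvable_def]
  refine ⟨n, ?_⟩
  rw [eq_bot_iff]
  intro a ha
  have := hn ha
  rw [MonoidHom.mem_ker] at this
  rw [Subgroup.mem_bot]
  exact this

theorem sol_mono {M : Type*} [Group M] {f : 𝒜 →* M} {n m : ℕ} (h : derivedSeries 𝒜 n ≤ f.ker)
    (hnm : n ≤ m) : derivedSeries 𝒜 m ≤ f.ker :=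
  le_trans (derivedSeries_antitone 𝒜 hnm) h

/-- If three actions become trivial and their joint kernel acts trivially, so does the action. -/
theorem sol_of_three {M M₁ M₂ M₃ : Type*} [Group M] [Group M₁] [Group M₂] [Group M₃]
    (f : 𝒜 →* M) (f₁ : 𝒜 →* M₁) (f₂ : 𝒜 →* M₂) (f₃ : 𝒜 →* M₃)
    (h₁ : Sol f₁) (h₂ : Sol f₂) (h₃ : Sol f₃)
    (hk : ∀ a, f₁ a = 1 → f₂ a = 1 → f₃ a = 1 → f a = 1) : Sol f := by
  obtain ⟨n₁, hn₁⟩ := h₁
  obtain ⟨n₂, hn₂⟩ := h₂
  obtain ⟨n₃, hn₃⟩ := h₃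
  refine ⟨max n₁ (max n₂ n₃), fun a ha => ?_⟩
  rw [MonoidHom.mem_ker]
  apply hk
  · exact MonoidHom.mem_ker.mp (sol_mono hn₁ (le_max_left _ _) ha)
  · exact MonoidHom.mem_ker.mp (sol_mono hn₂ (le_trans (le_max_left _ _) (le_max_right _ _)) ha)
  · exact MonoidHom.mem_ker.mp (sol_mono hn₃ (le_trans (le_max_right _ _) (le_max_right _ _)) ha)

theorem der_add_le (ℬ : Subgroup 𝒜) (n : ℕ) (h : derivedSeries 𝒜 n ≤ ℬ) (m : ℕ) :
    derivedSeries 𝒜 (n + m) ≤ (derivedSeries ℬ m).map ℬ.subtype := by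
  induction m with
  | zero =>
    rw [add_zero, derivedSeries_zero, ← MonoidHom.range_eq_map, Subgroup.range_subtype]
    exact h
  | succ m ih =>
    rw [← add_assoc, derivedSeries_succ, derivedSeries_succ, Subgroup.map_commutator]
    exact Subgroup.commutator_mono ih ih

/-- Passing to the kernel of a solvable action. -/
theorem sol_of_ker {M Y : Type*} [Group M] [Group Y] (f : 𝒜 →* M) (d : 𝒜 →* Y) (hd : Sol d)
    (h : Sol (f.comp d.ker.subtype)) : Sol f := by
  obtain ⟨n, hn⟩ := hd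
  obtain ⟨m, hm⟩ := h
  refine ⟨n + m, fun a ha => ?_⟩
  obtain ⟨b, hb, rfl⟩ := Subgroup.mem_map.mp (der_add_le d.ker n hn m ha)
  have := hm hb
  rw [MonoidHom.mem_ker] at this ⊢
  exact this

/-- The action induced on an invariant subgroup. -/
def resAut (c : 𝒜 →* MulAut X) (N : Subgroup X) (hN : ∀ a, ∀ n ∈ N, c a n ∈ N) :
    𝒜 →* MulAut ↥N where
  toFun a :=
    { toFun := fun n => ⟨c a n, hN a n n.2⟩
      invFun := fun n => ⟨c a⁻¹ n, hN a⁻¹ n n.2⟩
      left_inv := fun n => Subtype.ext (by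
        show c a⁻¹ (c a n) = n
        rw [map_inv]; simp)
      right_inv := fun n => Subtype.ext (by
        show c a (c a⁻¹ n) = n
        rw [map_inv]; simp)
      map_mul' := fun u v => Subtype.ext (map_mul (c a) (u : X) (v : X)) }
  map_one' := by
    ext n
    show c 1 (n : X) = n
    rw [map_one]; rfl
  map_mul' := fun a b => by
    ext n
    show c (a * b) (n : X) = c a (c b (n : X))
    rw [map_mul]; rfl

theorem resAut_apply (c : 𝒜 →* MulAut X) (N : Subgroup X) (hN : ∀ a, ∀ n ∈ N, c a n ∈ N)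
    (a : 𝒜) (n : ↥N) : ((resAut c N hN a n : ↥N) : X) = c a n := rfl

theorem map_eq_of_inv (c : 𝒜 →* MulAut X) (N : Subgroup X) (hN : ∀ a, ∀ n ∈ N, c a n ∈ N)
    (a : 𝒜) : N.map ((c a : X ≃* X) : X →* X) = N := by
  apply le_antisymm
  · rintro _ ⟨n, hn, rfl⟩
    exact hN a n hn
  · intro n hn
    refine ⟨c a⁻¹ n, hN a⁻¹ n hn, ?_⟩
    show c a (c a⁻¹ n) = n
    rw [map_inv]; simp

/-- The action induced on the quotient by an invariant normal subgroup. -/
def quotAut (c : 𝒜 →* MulAut X) (N : Subgroup X) [N.Normal] (hN : ∀ a, ∀ n ∈ N, c a n ∈ N) :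
    𝒜 →* MulAut (X ⧸ N) where
  toFun a := QuotientGroup.congr N N (c a) (map_eq_of_inv c N hN a)
  map_one' := by
    ext x
    induction x using QuotientGroup.induction_on with
    | H x =>
      rw [QuotientGroup.congr_mk, map_one]; rfl
  map_mul' := fun a b => by
    ext x
    induction x using QuotientGroup.induction_on with
    | H x =>
      rw [MulAut.mul_apply, QuotientGroup.congr_mk, QuotientGroup.congr_mk,
        QuotientGroup.congr_mk, map_mul]; rfl

theorem quotAut_mk (c : 𝒜 →* MulAut X) (N : Subgroup X) [N.Normal]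
    (hN : ∀ a, ∀ n ∈ N, c a n ∈ N) (a : 𝒜) (x : X) :
    quotAut c N hN a (QuotientGroup.mk x) = QuotientGroup.mk (c a x) := by
  show QuotientGroup.congr N N (c a) (map_eq_of_inv c N hN a) (QuotientGroup.mk x) = _
  rw [QuotientGroup.congr_mk]

/-- The permutation action induced on an invariant set. -/
def permOn (c : 𝒜 →* MulAut X) (S : Set X) (hS : ∀ a, ∀ v ∈ S, c a v ∈ S) :
    𝒜 →* Equiv.Perm ↥S where
  toFun a :=
    { toFun := fun v => ⟨c a v, hS a v v.2⟩
      invFun := fun v => ⟨c a⁻¹ v, hS a⁻¹ v v.2⟩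
      left_inv := fun v => Subtype.ext (by
        show c a⁻¹ (c a v) = v
        rw [map_inv]; simp)
      right_inv := fun v => Subtype.ext (by
        show c a (c a⁻¹ v) = v
        rw [map_inv]; simp) }
  map_one' := by
    ext v
    show c 1 (v : X) = v
    rw [map_one]; rfl
  map_mul' := fun a b => by
    ext v
    show c (a * b) (v : X) = c a (c b (v : X))
    rw [map_mul]; rfl

theorem permOn_apply (c : 𝒜 →* MulAut X) (S : Set X) (hS : ∀ a, ∀ v ∈ S, c a v ∈ S)
    (a : 𝒜) (v : ↥S) : ((permOn c S hS a v : ↥S) : X) = c a v := rfl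

/-- Two automorphisms stabilizing `X ≥ N ≥ 1` in a strong sense commute. -/
theorem comm_core (α β : MulAut X) (N : Subgroup X)
    (hα : ∀ n ∈ N, α n = n) (hβ : ∀ n ∈ N, β n = n)
    (hα' : ∀ x, x⁻¹ * α x ∈ N) (hβ' : ∀ x, x⁻¹ * β x ∈ N)
    (hcomm : ∀ x, ∀ n ∈ N, (x⁻¹ * α x) * n = n * (x⁻¹ * α x)) (x : X) :
    α (β x) = β (α x) := by
  have e1 : β x = x * (x⁻¹ * β x) := by group
  have e2 : α x = x * (x⁻¹ * α x) := by group
  have h1 : α (β x) = x * (x⁻¹ * α x) * (x⁻¹ * β x) := by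
    conv_lhs => rw [e1]
    rw [map_mul, hα _ (hβ' x)]
    group
  have h2 : β (α x) = x * (x⁻¹ * β x) * (x⁻¹ * α x) := by
    conv_lhs => rw [e2]
    rw [map_mul, hβ _ (hα' x)]
    group
  rw [h1, h2]
  have h3 := hcomm x _ (hβ' x)
  calc x * (x⁻¹ * α x) * (x⁻¹ * β x) = x * ((x⁻¹ * α x) * (x⁻¹ * β x)) := mul_assoc _ _ _
    _ = x * ((x⁻¹ * β x) * (x⁻¹ * α x)) := by rw [h3]
    _ = x * (x⁻¹ * β x) * (x⁻¹ * α x) := (mul_assoc _ _ _).symm

theorem sol_succ_of_comm (c : 𝒜 →* MulAut X) (n : ℕ)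
    (h : ∀ a ∈ derivedSeries 𝒜 n, ∀ b ∈ derivedSeries 𝒜 n, ∀ x, c a (c b x) = c b (c a x)) :
    Sol c := by
  refine ⟨n + 1, ?_⟩
  rw [derivedSeries_succ, Subgroup.commutator_le]
  intro a ha b hb
  rw [MonoidHom.mem_ker, map_commutatorElement, commutatorElement_eq_one_iff_commute]
  ext x
  exact h a ha b hb x

/-- Solvability of the actions on `N` and `X / N` gives solvability of the action on `X`. -/
theorem sol_of_res_quot (c : 𝒜 →* MulAut X) (N : Subgroup X) [N.Normal]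
    (hN : ∀ a, ∀ n ∈ N, c a n ∈ N) (h1 : Sol (resAut c N hN)) (h2 : Sol (quotAut c N hN)) :
    Sol c := by
  obtain ⟨n₁, hn₁⟩ := h1
  obtain ⟨n₂, hn₂⟩ := h2
  apply sol_succ_of_comm c (max n₁ n₂)
  have key : ∀ a ∈ derivedSeries 𝒜 (max n₁ n₂),
      (∀ n ∈ N, c a n = n) ∧ (∀ x, x⁻¹ * c a x ∈ N) := by
    intro a ha
    have ha1 := MonoidHom.mem_ker.mp (sol_mono hn₁ (le_max_left _ _) ha)
    have ha2 := MonoidHom.mem_ker.mp (sol_mono hn₂ (le_max_right _ _) ha)
    refine ⟨fun n hn => ?_, fun x => ?_⟩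
    · have := congrArg (fun f : MulAut ↥N => ((f ⟨n, hn⟩ : ↥N) : X)) ha1
      exact this
    · have h3 := congrArg (fun f : MulAut (X ⧸ N) => f (QuotientGroup.mk x)) ha2
      simp only [quotAut_mk, MulAut.one_apply] at h3
      exact QuotientGroup.eq.mp h3.symm
  intro a ha b hb x
  obtain ⟨ha1, ha2⟩ := key a ha
  obtain ⟨hb1, hb2⟩ := key b hb
  apply comm_core (c a) (c b) N ha1 hb1 ha2 hb2
  intro y n hn
  -- `y⁻¹ * c a y` centralizes `N`
  have h3 : c a (y * n * y⁻¹) = y * n * y⁻¹ := ha1 _ (Subgroup.Normal.conj_mem inferInstance n hn y)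
  rw [map_mul, map_mul, ha1 n hn, map_inv] at h3
  have h4 : c a y * n = y * n * y⁻¹ * c a y := by
    rw [← h3]; group
  calc y⁻¹ * c a y * n = y⁻¹ * (c a y * n) := by group
    _ = y⁻¹ * (y * n * y⁻¹ * c a y) := by rw [h4]
    _ = n * (y⁻¹ * c a y) := by group

/-- Solvability of the action on a self-centralizing invariant normal subgroup suffices. -/
theorem sol_of_res_selfcentralizing (c : 𝒜 →* MulAut X) (H : Subgroup X) [H.Normal]
    (hH : ∀ a, ∀ h ∈ H, c a h ∈ H) (hC : Subgroup.centralizer (H : Set X) ≤ H)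
    (h1 : Sol (resAut c H hH)) : Sol c := by
  obtain ⟨n₁, hn₁⟩ := h1
  apply sol_succ_of_comm c n₁
  have key : ∀ a ∈ derivedSeries 𝒜 n₁,
      (∀ n ∈ H, c a n = n) ∧ (∀ x, x⁻¹ * c a x ∈ Subgroup.centralizer (H : Set X)) := by
    intro a ha
    have ha1 := MonoidHom.mem_ker.mp (hn₁ ha)
    have hfix : ∀ n ∈ H, c a n = n := fun n hn => by
      have := congrArg (fun f : MulAut ↥H => ((f ⟨n, hn⟩ : ↥H) : X)) ha1
      exact this
    refine ⟨hfix, fun y => ?_⟩
    rw [Subgroup.mem_centralizer_iff]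
    intro n hn
    have h3 : c a (y * n * y⁻¹) = y * n * y⁻¹ :=
      hfix _ (Subgroup.Normal.conj_mem inferInstance n hn y)
    rw [map_mul, map_mul, hfix n hn, map_inv] at h3
    have h4 : c a y * n = y * n * y⁻¹ * c a y := by
      rw [← h3]; group
    calc n * (y⁻¹ * c a y) = y⁻¹ * (y * n * y⁻¹ * c a y) := by group
      _ = y⁻¹ * (c a y * n) := by rw [h4]
      _ = y⁻¹ * c a y * n := by group
  intro a ha b hb x
  obtain ⟨ha1, ha2⟩ := key a ha
  obtain ⟨hb1, hb2⟩ := key b hb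
  apply comm_core (c a) (c b) H ha1 hb1 (fun y => hC (ha2 y)) (fun y => hC (hb2 y))
  intro y n hn
  exact ((Subgroup.mem_centralizer_iff.mp (ha2 y)) n hn).symm

/-- The automorphism group of a group of order at most four is solvable. -/
theorem isSolvable_mulAut_of_card_le_four (Q : Type*) [Group Q] [Finite Q]
    (h : Nat.card Q ≤ 4) : Group.IsSolvable (MulAut Q) := by
  classical
  have : Fintype Q := Fintype.ofFinite Q
  have h' : Fintype.card Q ≤ 4 := by rwa [← Nat.card_eq_fintype_card]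
  have hs : Group.IsSolvable (Equiv.Perm Q) :=
    Cfsg.Agent.H76.isSolvable_perm_of_card_le_four h'
  exact Group.isSolvable_of_isSolvable_injective (f := MulAut.toPerm Q) (fun a b hab => by
    ext x
    exact congrArg (fun f : Equiv.Perm Q => f x) hab)

theorem sol_of_card_le_four (c : 𝒜 →* MulAut X) [Finite X] (h : Nat.card X ≤ 4) : Sol c :=
  sol_of_isSolvable c (isSolvable_mulAut_of_card_le_four X h)

end Cfsg.Agent.H76.AutSol
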