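import Mathlib
import Cfsg.Agent.Lib.Helper30.BG12TDefs
import Cfsg.Agent.H63.Sig
import Cfsg.Agent.S1459
import Cfsg.Agent.H76.BG10x
import Cfsg.Agent.H76.BG1213
import Cfsg.Agent.H66.PiHall

set_option autoImplicit false
set_option linter.style.haveILetI false

/-!
# Bender–Glauberman: the action of a complement `E` on `M_σ` and the intersections `M_σ ∩ M^g`
(S1426)

`bg1216 : StSigComm G → St1350 G → St1404 G → St1414 G → St1420c G → St1423 G → St1426 G`
(helper76).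
-/

namespace Cfsg.Agent.H76.BG12

open Cfsg Subgroup Cfsg.Agent.H58.BG10 Cfsg.Agent.H57.BG12 Cfsg.Agent.H63.Sig
  Cfsg.Agent.Lib.Helper30.BG12T
open scoped Pointwise

universe u

variable {G : Type u} [Group G]

/-- S1426 as a `Prop`. -/
def St1426 (G : Type u) [Group G] : Prop :=
  ∀ (M : Subgroup G), IsCoatom M → ∀ E : Subgroup G, IsComplIn E (sigmaCore M) M →
    sigmaCore M ⊓ centralizer (E : Set G) ≤ ⁅sigmaCore M, sigmaCore M⁆ ∧
      ⁅sigmaCore M, E⁆ = sigmaCore M ∧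
      ∀ g : G, g ∉ M → IsCyclic ↥(sigmaCore M ⊓ M.map (MulAut.conj g).toMonoidHom) ∧
        (∀ p : ℕ, p.Prime →
          p ∣ Nat.card ↥(sigmaCore M ⊓ M.map (MulAut.conj g).toMonoidHom) → p ∉ beta M) ∧
        sigmaCore M ⊓ M.map (MulAut.conj g).toMonoidHom ⊓ ⁅sigmaCore M, sigmaCore M⁆ = ⊥

/-- Parts (a), (b): `C_{M_σ}(E) ≤ M_σ'` and `[M_σ, E] = M_σ`. -/
theorem bg1216_ab [Finite G] (hG : IsMinSimpleOddOrder G) (hT : StSigComm G) (h350 : St1350 G)
    (M : Subgroup G) (hM : IsCoatom M) (E : Subgroup G) (hE : IsComplIn E (sigmaCore M) M) :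
    sigmaCore M ⊓ centralizer (E : Set G) ≤ ⁅sigmaCore M, sigmaCore M⁆ ∧
      ⁅sigmaCore M, E⁆ = sigmaCore M := by
  haveI : Group.IsSolvable ↥M := Cfsg.Agent.H76.BG10.solvable_coatom hG hM
  obtain ⟨hEM, hKM, hdisj, hprod⟩ := hE
  obtain ⟨K₀, hK₀⟩ : ∃ K₀ : Subgroup ↥M, K₀ = piCore (sigma M) ↥M := ⟨_, rfl⟩
  have hKmap : K₀.map M.subtype = sigmaCore M := by rw [hK₀]; rfl
  obtain ⟨E₀, hE₀⟩ : ∃ E₀ : Subgroup ↥M, E₀ = E.subgroupOf M := ⟨_, rfl⟩
  have hEmap : E₀.map M.subtype = E := by rw [hE₀]; exact Subgroup.map_subgroupOf_eq_of_le hEM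
  have hnorm : K₀.Normal := by rw [hK₀]; infer_instance
  have hmemK : ∀ x : ↥M, x ∈ K₀ ↔ (x : G) ∈ sigmaCore M := by
    intro x
    rw [← hKmap]
    constructor
    · intro hx; exact Subgroup.mem_map_of_mem _ hx
    · rintro ⟨y, hy, hyx⟩
      have : y = x := Subtype.ext hyx
      rwa [← this]
  have hmemE : ∀ x : ↥M, x ∈ E₀ ↔ (x : G) ∈ E := by
    intro x; rw [hE₀, Subgroup.mem_subgroupOf]
  have hcop : (Nat.card K₀).Coprime K₀.index := by
    obtain ⟨⟨_, h1, h2⟩, _⟩ := h350 M hM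
    by_contra hnc
    obtain ⟨p, hp, hp1, hp2⟩ := Nat.Prime.not_coprime_iff_dvd.mp hnc
    have hps : p ∈ sigma M := h1 p hp (by
      rwa [← hKmap, Subgroup.card_map_of_injective M.subtype_injective])
    apply h2 p hp hps
    rwa [← hKmap, Cfsg.Agent.H76.BG10.relIndex_map_subtype']
  have hcompl : Subgroup.IsComplement' K₀ E₀ := by
    apply Subgroup.IsComplement'.symm
    apply Subgroup.isComplement'_of_disjoint_and_mul_eq_univ
    · rw [disjoint_iff, Subgroup.eq_bot_iff_forall]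
      intro x hx
      have h1 : (x : G) ∈ E ⊓ sigmaCore M :=
        ⟨(hmemE x).mp hx.1, (hmemK x).mp hx.2⟩
      rw [hdisj, Subgroup.mem_bot] at h1
      exact Subtype.ext h1
    · rw [Set.eq_univ_iff_forall]
      intro x
      obtain ⟨a, ha, b, hb, hab⟩ := hprod x x.2
      refine Set.mem_mul.mpr ⟨⟨a, hEM ha⟩, (hmemE _).mpr ha, ⟨b, hKM hb⟩, (hmemK _).mpr hb, ?_⟩
      exact Subtype.ext hab.symm
  have hle : K₀ ≤ commutator ↥M := by
    rw [hK₀]; exact Cfsg.Agent.H76.BG10.piCore_sigma_le_commutator hT M hM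
  obtain ⟨h1, h2⟩ := (Cfsg.Agent.S1459.result (G := ↥M)).1 K₀ E₀ hnorm hcop hcompl hle
  constructor
  · intro x hx
    have hxM : x ∈ M := hKM hx.1
    have hxk : (⟨x, hxM⟩ : ↥M) ∈ K₀ ⊓ centralizer (E₀ : Set ↥M) := by
      refine Subgroup.mem_inf.mpr ⟨(hmemK _).mpr hx.1, ?_⟩
      rw [Subgroup.mem_centralizer_iff]
      intro e he
      apply Subtype.ext
      exact (Subgroup.mem_centralizer_iff.mp hx.2) (e : G) ((hmemE e).mp he)
    have h3 := h2 hxk
    have h4 : x ∈ (⁅K₀, K₀⁆ : Subgroup ↥M).map M.subtype := ⟨⟨x, hxM⟩, h3, rfl⟩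
    rwa [Subgroup.map_commutator, hKmap] at h4
  · have h3 := congrArg (Subgroup.map M.subtype) h1
    rw [Subgroup.map_commutator, hKmap, hEmap] at h3
    exact h3.symm

/-- A `σ(M)`-subgroup of `M ∩ M^g`, `g ∉ M`, has its centralizer outside `M`. -/
theorem not_centralizer_le [Finite G] (h04 : St1404 G) {M : Subgroup G} (hM : IsCoatom M)
    {g : G} (hg : g ∉ M) {q : ℕ} [Fact q.Prime] (hq : q ∈ sigma M) {X : Subgroup G}
    (hXq : IsPGroup q X) (hX1 : X ≠ ⊥) (hXM : X ≤ M)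
    (hXg : X ≤ M.map (MulAut.conj g).toMonoidHom) :
    ¬ centralizer (X : Set G) ≤ M := by
  intro hC
  have h1 : X.map (MulAut.conj g⁻¹).toMonoidHom ≤ M := by
    rw [map_conj_eq_smul] at hXg ⊢
    have := cj_mono g⁻¹ hXg
    rwa [cj_inv_cj] at this
  obtain ⟨m, hm, c, hc, hgmc⟩ := (h04 M hM q hq X hXq hX1 hXM).1 g⁻¹ h1
  apply hg
  have h2 : g⁻¹ ∈ M := by rw [hgmc]; exact mul_mem hm (hC hc)
  simpa using inv_mem h2

/-- Part (c): for `g ∉ M`, `M_σ ∩ M^g` is a cyclic `β(M)'`-group meeting `M_σ'` trivially. -/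
theorem bg1216_c [Finite G] (hG : IsMinSimpleOddOrder G) (h350 : St1350 G) (h04 : St1404 G)
    (h14 : Cfsg.Agent.H76.BG10.St1414 G) (h20c : St1420c G) (h23 : St1423 G)
    (M : Subgroup G) (hM : IsCoatom M) (g : G) (hg : g ∉ M) :
    IsCyclic ↥(sigmaCore M ⊓ M.map (MulAut.conj g).toMonoidHom) ∧
      (∀ p : ℕ, p.Prime →
        p ∣ Nat.card ↥(sigmaCore M ⊓ M.map (MulAut.conj g).toMonoidHom) → p ∉ beta M) ∧
      sigmaCore M ⊓ M.map (MulAut.conj g).toMonoidHom ⊓ ⁅sigmaCore M, sigmaCore M⁆ = ⊥ := by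
  obtain ⟨D, hD⟩ : ∃ D : Subgroup G, D = sigmaCore M ⊓ M.map (MulAut.conj g).toMonoidHom :=
    ⟨_, rfl⟩
  rw [← hD]
  have hKM : sigmaCore M ≤ M := (h350 M hM).1.1
  have hDK : D ≤ sigmaCore M := by rw [hD]; exact inf_le_left
  have hDM : D ≤ M := hDK.trans hKM
  have hDg : D ≤ M.map (MulAut.conj g).toMonoidHom := by rw [hD]; exact inf_le_right
  have hσD : ∀ q : ℕ, q.Prime → q ∣ Nat.card D → q ∈ sigma M := fun q hq hd =>
    (h350 M hM).1.2.1 q hq (hd.trans (Subgroup.card_dvd_of_le hDK))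
  have key : ∀ (q : ℕ) [Fact q.Prime], q ∈ sigma M → ∀ X : Subgroup G, X ≤ D →
      IsPGroup q X → X ≠ ⊥ → ¬ centralizer (X : Set G) ≤ M :=
    fun q _ hq X hXD hXq hX1 =>
      not_centralizer_le h04 hM hg hq hXq hX1 (hXD.trans hDM) (hXD.trans hDg)
  -- subgroups of prime order
  have hord : ∀ (N : Subgroup G) (q : ℕ), q.Prime → q ∣ Nat.card N →
      ∃ X : Subgroup G, X ≤ N ∧ Nat.card X = q ∧ IsPGroup q X ∧ X ≠ ⊥ := by
    intro N q hq hd
    haveI : Fact q.Prime := ⟨hq⟩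
    obtain ⟨x, hx⟩ := exists_prime_orderOf_dvd_card' q hd
    have hc : Nat.card (zpowers (x : G)) = q := by
      rw [Nat.card_zpowers, Subgroup.orderOf_coe, hx]
    refine ⟨zpowers (x : G), ?_, hc, IsPGroup.of_card (n := 1) (by rw [hc, pow_one]), ?_⟩
    · rw [zpowers_le]; exact x.2
    · intro h
      rw [h, Subgroup.card_bot] at hc
      exact hq.one_lt.ne hc
  have hβ : ∀ p : ℕ, p.Prime → p ∣ Nat.card D → p ∉ beta M := by
    intro q hq hd hqβ
    haveI : Fact q.Prime := ⟨hq⟩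
    obtain ⟨X, hXD, hXc, hXq, hX1⟩ := hord D q hq hd
    obtain ⟨P⟩ : Nonempty (Sylow q ↥(sigmaCore M)) := inferInstance
    exact key q (hσD q hq hd) X hXD hXq hX1
      (h23 M hM q (hσD q hq hd) X (hXD.trans hDM) hXc P (Or.inl hqβ)).1.1
  have hder : D ⊓ ⁅sigmaCore M, sigmaCore M⁆ = ⊥ := by
    by_contra hne
    have hcard : Nat.card ↥(D ⊓ ⁅sigmaCore M, sigmaCore M⁆) ≠ 1 := by
      rwa [Ne, Subgroup.card_eq_one]
    obtain ⟨q, hq, hd⟩ := Nat.exists_prime_and_dvd hcard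
    haveI : Fact q.Prime := ⟨hq⟩
    obtain ⟨X, hXle, hXc, hXq, hX1⟩ := hord _ q hq hd
    have hXD : X ≤ D := hXle.trans inf_le_left
    have hqD : q ∣ Nat.card D := hd.trans (Subgroup.card_dvd_of_le inf_le_left)
    obtain ⟨P⟩ : Nonempty (Sylow q ↥(sigmaCore M)) := inferInstance
    exact key q (hσD q hq hqD) X hXD hXq hX1
      (h23 M hM q (hσD q hq hqD) X (hXD.trans hDM) hXc P (Or.inr (hXle.trans inf_le_right))).1.1
  refine ⟨?_, hβ, hder⟩
  -- Sylow subgroups of `D` are cyclic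
  haveI hZ : IsZGroup ↥D := by
    refine ⟨fun q hqF P => ?_⟩
    haveI : Fact q.Prime := ⟨hqF⟩
    by_contra hnc
    rcases P.2.card_eq_or_dvd with h1 | hq
    · haveI : Subsingleton ↥(P : Subgroup ↥D) := (Nat.card_eq_one_iff_unique.mp h1).1
      exact hnc inferInstance
    · have hqD : q ∣ Nat.card D := hq.trans (Subgroup.card_subgroup_dvd_card _)
      have hqσ := hσD q Fact.out hqD
      obtain ⟨X, hXdef⟩ : ∃ X : Subgroup G, X = (P : Subgroup ↥D).map D.subtype := ⟨_, rfl⟩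
      have hXD : X ≤ D := by rw [hXdef]; exact Subgroup.map_subtype_le _
      have hXq : IsPGroup q X := by rw [hXdef]; exact P.2.map _
      have hXc : Nat.card X = Nat.card (P : Subgroup ↥D) := by
        rw [hXdef, Subgroup.card_map_of_injective D.subtype_injective]
      have hX1 : X ≠ ⊥ := by
        intro h
        rw [h, Subgroup.card_bot] at hXc
        rw [← hXc] at hq
        exact (Fact.out : q.Prime).one_lt.ne' (Nat.dvd_one.mp hq)
      have hXnc : ¬ IsCyclic X := by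
        intro hc
        apply hnc
        haveI : IsCyclic ↥((P : Subgroup ↥D).map D.subtype) := by rw [← hXdef]; exact hc
        exact isCyclic_of_surjective
          ((P : Subgroup ↥D).equivMapOfInjective D.subtype D.subtype_injective).symm
          (MulEquiv.surjective _)
      exact key q hqσ X hXD hXq hX1 ((Subgroup.centralizer_le_normalizer _).trans
        (h20c M hM q X hqσ hXq (hXD.trans hDM) hXnc))
  -- `D` is nilpotent
  haveI hNil : Group.IsNilpotent ↥D := by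
    haveI : Group.IsSolvable ↥M := Cfsg.Agent.H76.BG10.solvable_coatom hG hM
    have hs : Group.IsSolvable ↥(sigmaCore M) :=
      Group.isSolvable_of_isSolvable_injective (Subgroup.inclusion_injective hKM)
    obtain ⟨hU, hconj⟩ := Cfsg.Agent.H66.pi_hall_internal {q | q.Prime ∧ q ∉ beta M}
      (sigmaCore M) (sigmaCore M) Subgroup.le_normalizer hs (by
        intro r hr hd
        rw [Subgroup.relIndex_self] at hd
        exact absurd (Nat.dvd_one.mp hd) hr.ne_one)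
    obtain ⟨K, hK, hDK'⟩ := hU D hDK (fun r hr hd => ⟨hr, hβ r hr hd⟩)
    obtain ⟨_, _, _, ⟨H, hH, hHnil⟩, _⟩ := h14 M hM
    obtain ⟨t, _, hKt⟩ := hconj H K hH hK
    haveI := hHnil
    haveI : Group.IsNilpotent ↥K := by
      subst hKt
      exact Cfsg.Agent.H76.BG10.isNilpotent_of_injective
        ((Subgroup.equivSMul (MulAut.conj t) H).symm.toMonoidHom) (MulEquiv.injective _)
    exact Cfsg.Agent.H76.BG10.isNilpotent_of_injective (Subgroup.inclusion hDK')
      (Subgroup.inclusion_injective hDK')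
  infer_instance

/-- **S1426**. -/
theorem bg1216 [Finite G] (hG : IsMinSimpleOddOrder G) (hT : StSigComm G) (h350 : St1350 G)
    (h04 : St1404 G) (h14 : Cfsg.Agent.H76.BG10.St1414 G) (h20c : St1420c G) (h23 : St1423 G) :
    St1426 G := by
  intro M hM E hE
  obtain ⟨ha, hb⟩ := bg1216_ab hG hT h350 M hM E hE
  exact ⟨ha, hb, fun g hg => bg1216_c hG h350 h04 h14 h20c h23 M hM g hg⟩

end Cfsg.Agent.H76.BG12
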