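import Mathlib
import Cfsg.Agent.H76.NCKillDefs
import Cfsg.Agent.S1403
import Cfsg.Agent.S1417
import Cfsg.Agent.S1418
import Cfsg.Agent.S1422
import Cfsg.Agent.S1423
import Cfsg.Agent.H58.BG10FG

set_option autoImplicit false

/-!
# The kill of configuration (NC): piece MSTAR (helper76)
-/

namespace Cfsg.Agent.H76.NCKill

open Cfsg Subgroup

universe u

variable {G : Type u} [Group G] [Finite G]

/-- A proper subgroup of a finite group lies in a maximal subgroup. -/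
theorem exists_coatom_ge {H : Subgroup G} (hH : H ≠ ⊤) : ∃ L : Subgroup G, IsCoatom L ∧ H ≤ L := by
  rcases eq_top_or_exists_le_coatom H with h | h
  · exact absurd h hH
  · exact h

/-- (MSTAR). -/
theorem mstar : StMstar G := by
  intro hG M E A P r p _ hNC
  have hr : r.Prime := Fact.out
  have hM := hNC.coatom
  have hEM : E ≤ M := hNC.compl.1
  have hAM : A ≤ M := hNC.AE.trans hEM
  have hsimple : IsSimpleGroup G := hG.2.1
  have h96 : Cfsg.Agent.H58.BG10.St1403 G := fun K hK hK2 hK3 =>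
    Cfsg.Agent.S1403.result hG K hK hK2 hK3
  have h17 := Cfsg.Agent.S1417.result hG M hM r hNC.tau2 A ⟨hAM, hNC.Ael, hNC.Acard⟩
  have h18 := Cfsg.Agent.S1418.result hG M hM E hNC.compl r hNC.tau2 A
    ⟨hNC.AE, hNC.Ael, hNC.Acard⟩
  obtain ⟨⟨hEN, -⟩, ⟨hCA, hMN, hNnM⟩, -⟩ := h18
  have hp : p.Prime := hNC.tau1.1
  have hpr : p ≠ r := by
    rintro rfl
    exact hNC.tau2.2.2.2 hNC.tau1.2.2.2.2
  -- `p ∣ |G|`, so no Sylow `r`-subgroup is `⊤`
  have hpG : p ∣ Nat.card G := by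
    rw [← hNC.Pcard]; exact Subgroup.card_subgroup_dvd_card P
  have hSne : ∀ S : Sylow r G, (S : Subgroup G) ≠ ⊤ := by
    intro S hS
    obtain ⟨n, hn⟩ := IsPGroup.iff_card.mp S.isPGroup'
    rw [hS, Subgroup.card_top] at hn
    rw [hn] at hpG
    exact hpr ((Nat.prime_dvd_prime_iff_eq hp hr).mp (hp.dvd_of_dvd_pow hpG))
  -- a Sylow `r`-subgroup `SM` of `M` over `A`
  have hAr : IsPGroup r (A.subgroupOf M) := by
    intro a
    refine ⟨1, ?_⟩
    have := hNC.Ael.2 (a : M) a.2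
    apply Subtype.ext
    apply Subtype.ext
    simpa using this
  obtain ⟨SM, hSM⟩ := hAr.exists_le_sylow
  set T : Subgroup G := (SM : Subgroup M).map M.subtype with hT
  have hTM : T ≤ M := by
    rintro _ ⟨y, -, rfl⟩; exact y.2
  have hAT : A ≤ T := by
    intro a ha
    exact ⟨⟨a, hAM ha⟩, hSM (by simpa [Subgroup.mem_subgroupOf] using ha), rfl⟩
  obtain ⟨hSMc, hSMA⟩ := h17.2.1 SM
  obtain ⟨hΩ, -⟩ := hSMA hAT
  have hTcomm : ∀ a ∈ T, ∀ b ∈ T, a * b = b * a := by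
    rintro _ ⟨a, ha, rfl⟩ _ ⟨b, hb, rfl⟩
    have := hSMc.1.1 ⟨a, ha⟩ ⟨b, hb⟩
    have h2 : a * b = b * a := congrArg Subtype.val this
    exact congrArg Subtype.val h2
  have hTr : IsPGroup r T := SM.isPGroup'.map M.subtype
  obtain ⟨S1, hS1⟩ := hTr.exists_le_sylow
  have hAS1 : A ≤ (S1 : Subgroup G) := hAT.trans hS1
  -- `S1 ⊓ M = T`
  have hS1M : (S1 : Subgroup G) ⊓ M ≤ T := by
    have hQ : IsPGroup r (((S1 : Subgroup G) ⊓ M).subgroupOf M) :=
      (S1.isPGroup'.to_le inf_le_left).comap_subtype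
    have hle : (SM : Subgroup M) ≤ ((S1 : Subgroup G) ⊓ M).subgroupOf M := by
      intro y hy
      rw [Subgroup.mem_subgroupOf]
      exact ⟨hS1 ⟨y, hy, rfl⟩, y.2⟩
    have heq := SM.is_maximal' hQ hle
    intro y hy
    have : (⟨y, hy.2⟩ : M) ∈ ((S1 : Subgroup G) ⊓ M).subgroupOf M := by
      rw [Subgroup.mem_subgroupOf]; exact hy
    rw [heq] at this
    exact ⟨⟨y, hy.2⟩, this, rfl⟩
  -- `T ≠ S1`
  have hTne : T ≠ (S1 : Subgroup G) := by
    intro h
    apply hNC.nonab S1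
    refine ⟨⟨fun a b => ?_⟩⟩
    apply Subtype.ext
    exact hTcomm a (by rw [h]; exact a.2) b (by rw [h]; exact b.2)
  -- normalizer condition in `S1`
  have hnil : Group.IsNilpotent (S1 : Subgroup G) := S1.isPGroup'.isNilpotent
  have hlt : T.subgroupOf (S1 : Subgroup G) < ⊤ := by
    rw [lt_top_iff_ne_top]
    intro h
    apply hTne
    apply le_antisymm hS1
    intro y hy
    have : (⟨y, hy⟩ : (S1 : Subgroup G)) ∈ T.subgroupOf (S1 : Subgroup G) := by
      rw [h]; trivial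
    simpa [Subgroup.mem_subgroupOf] using this
  have hnc := normalizerCondition_of_isNilpotent (H := T.subgroupOf (S1 : Subgroup G)) hlt
  obtain ⟨x, hxN, hxT⟩ := SetLike.exists_of_lt hnc
  have hxS1 : (x : G) ∈ (S1 : Subgroup G) := x.2
  have hxT' : (x : G) ∉ T := by
    intro h; exact hxT (by simpa [Subgroup.mem_subgroupOf] using h)
  have hxnorm : ∀ t : G, t ∈ (S1 : Subgroup G) → (t ∈ T ↔ (x : G) * t * (x : G)⁻¹ ∈ T) := by
    intro t ht
    have := (Subgroup.mem_normalizer_iff.mp hxN) ⟨t, ht⟩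
    simpa [Subgroup.mem_subgroupOf] using this
  -- `x` normalizes `A`
  have hxA : (x : G) ∈ normalizer (A : Set G) := by
    rw [Subgroup.mem_normalizer_iff]
    intro a
    constructor
    · intro ha
      have haT := hAT ha
      have h1 : (x : G) * a * (x : G)⁻¹ ∈ T := (hxnorm a (hS1 haT)).mp haT
      refine (hΩ _ h1).mp ?_
      rw [conj_pow, (hΩ a haT).mpr ha]
      simp
    · intro ha
      have haS1 : a ∈ (S1 : Subgroup G) := by
        have h1 : (x : G) * a * (x : G)⁻¹ ∈ (S1 : Subgroup G) := hAS1 ha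
        have h2 := (S1 : Subgroup G).mul_mem ((S1 : Subgroup G).mul_mem
          ((S1 : Subgroup G).inv_mem hxS1) h1) hxS1
        simpa [mul_assoc] using h2
      have haT : a ∈ T := (hxnorm a haS1).mpr (hAT ha)
      refine (hΩ a haT).mp ?_
      have h3 := (hΩ _ (hAT ha)).mpr ha
      rw [conj_pow] at h3
      have h4 : (x : G)⁻¹ * ((x : G) * a ^ r * (x : G)⁻¹) * (x : G) = 1 := by
        rw [h3]; simp
      simpa [mul_assoc] using h4
  -- `x` does not centralize `A`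
  have hxC : (x : G) ∉ centralizer (A : Set G) := by
    intro h
    exact hxT' (hS1M ⟨hxS1, (hCA h).1⟩)
  -- the nonabelian `r`-group `R = N_{S1}(A)`
  set R : Subgroup G := (S1 : Subgroup G) ⊓ normalizer (A : Set G) with hR
  have hRp : IsPGroup r R := S1.isPGroup'.to_le inf_le_left
  have hAcomm : ∀ a ∈ A, ∀ b ∈ A, a * b = b * a := fun a ha b hb =>
    congrArg Subtype.val (hNC.Ael.1.1.1 ⟨a, ha⟩ ⟨b, hb⟩)
  have hAR : A ≤ R := by
    intro a ha
    refine ⟨hAS1 ha, ?_⟩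
    exact Subgroup.le_normalizer ha
  have hxR : (x : G) ∈ R := ⟨hxS1, hxA⟩
  have hRna : ¬ IsMulCommutative R := by
    intro hc
    apply hxC
    rw [Subgroup.mem_centralizer_iff]
    intro a ha
    have := hc.1.1 ⟨a, hAR ha⟩ ⟨(x : G), hxR⟩
    exact congrArg Subtype.val this
  obtain ⟨Ms, ⟨hMs, hRMs⟩, huniq⟩ := Cfsg.Agent.S1422.result hG r R hRp hRna
  -- `N_G(A) ≤ Ms`
  have hNAne : normalizer (A : Set G) ≠ ⊤ := by
    intro h
    have hn : A.Normal := Subgroup.normalizer_eq_top_iff.mp h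
    rcases hn.eq_bot_or_eq_top with h0 | h1
    · have hc := hNC.Acard
      rw [h0, Subgroup.card_bot] at hc
      have : 1 < r ^ 2 := Nat.one_lt_pow (by norm_num) hr.one_lt
      omega
    · exact hM.1 (top_le_iff.mp (h1 ▸ hAM))
  have hNAMs : normalizer (A : Set G) ≤ Ms := by
    obtain ⟨L, hL, hNL⟩ := exists_coatom_ge hNAne
    have := huniq L ⟨hL, inf_le_right.trans hNL⟩
    exact this ▸ hNL
  have hEMs : E ≤ Ms := hEN.trans hNAMs
  have hS1Ms : (S1 : Subgroup G) ≤ Ms := by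
    obtain ⟨L, hL, hSL⟩ := exists_coatom_ge (hSne S1)
    have := huniq L ⟨hL, inf_le_left.trans hSL⟩
    exact this ▸ hSL
  have hMsM : Ms ≠ M := by
    intro h
    exact hxT' (hS1M ⟨hxS1, h ▸ hS1Ms hxS1⟩)
  refine ⟨Ms, hMs, hEMs, ?_, ?_, ⟨S1, hS1Ms, hAS1⟩, ?_⟩
  · -- `r` is not ideal
    intro h
    obtain ⟨B, hBS, hBel, hAB⟩ := h.2.2.2 S1 A hAS1 hNC.Ael hNC.Acard
    have hBA : B ≤ A := by
      intro b hb
      have hbC : b ∈ centralizer (A : Set G) := by
        rw [Subgroup.mem_centralizer_iff]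
        intro a ha
        exact congrArg Subtype.val (hBel.1.1.1 ⟨a, hAB.le ha⟩ ⟨b, hb⟩)
      have hbT : b ∈ T := hS1M ⟨hBS hb, (hCA hbC).1⟩
      exact (hΩ b hbT).mp (hBel.2 b hb)
    exact (not_le_of_gt hAB) hBA
  · -- `p ∉ β(Ms)`
    intro h
    have hpσ : p ∈ sigma Ms := Cfsg.Agent.H58.BG10.alpha_subset_sigma hG h96 hMs h.1
    haveI : Fact p.Prime := ⟨hp⟩
    obtain ⟨Pσ⟩ := (inferInstance : Nonempty (Sylow p ↥(sigmaCore Ms)))
    have h23 := Cfsg.Agent.S1423.result hG Ms hMs p hpσ P (hNC.PE.trans hEMs) hNC.Pcard Pσ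
      (Or.inl h)
    have hCP : centralizer (P : Set G) ≤ Ms := h23.1.1
    have hbot := h17.2.2.2.2.1 Ms hMs hMsM (hNC.AE.trans hEMs)
    apply hNC.Kstar
    rw [eq_bot_iff, ← hbot]
    exact inf_le_inf_left _ hCP
  · -- normalizers of Sylow `r`-subgroups inside `Ms`
    intro S hS
    have hSna := hNC.nonab S
    obtain ⟨L0, ⟨hL0, hSL0⟩, huniq0⟩ := Cfsg.Agent.S1422.result hG r (S : Subgroup G)
      S.isPGroup' hSna
    have hMsL0 : Ms = L0 := huniq0 Ms ⟨hMs, hS⟩
    have hNSne : normalizer ((S : Subgroup G) : Set G) ≠ ⊤ := by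
      intro h
      have hn : (S : Subgroup G).Normal := Subgroup.normalizer_eq_top_iff.mp h
      rcases hn.eq_bot_or_eq_top with h0 | h1
      · apply hSna
        refine ⟨⟨fun a b => ?_⟩⟩
        have hmem : ∀ y : G, y ∈ (S : Subgroup G) → y = 1 := fun y hy =>
          Subgroup.mem_bot.mp (h0 ▸ hy)
        have ha : (a : G) = 1 := hmem _ a.2
        have hb : (b : G) = 1 := hmem _ b.2
        apply Subtype.ext
        simp [ha, hb]
      · exact hSne S h1
    obtain ⟨L, hL, hNL⟩ := exists_coatom_ge hNSne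
    have hLL0 : L = L0 := huniq0 L ⟨hL, Subgroup.le_normalizer.trans hNL⟩
    rw [hMsL0, ← hLL0]
    exact hNL

end Cfsg.Agent.H76.NCKill
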