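import Mathlib
import Cfsg.Agent.H76.NCKillDefs
import Cfsg.Agent.S1419

set_option autoImplicit false

/-!
# The kill of configuration (NC): assembly (helper76)
-/

namespace Cfsg.Agent.H76.NCKill

open Cfsg Subgroup

universe u

variable {G : Type u} [Group G]

/-- A group of prime order: centralizing it is centralizing one non-identity element. -/
theorem centralizer_eq_of_card_prime {r : ℕ} [Fact r.Prime] {B : Subgroup G}
    (hB : Nat.card B = r) {a : G} (ha : a ∈ B) (ha1 : a ≠ 1) :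
    centralizer ((B : Subgroup G) : Set G) = centralizer ({a} : Set G) := by
  apply le_antisymm
  · exact Subgroup.centralizer_le (by simpa using ha)
  · intro x hx b hb
    have hx' : a * x = x * a := by
      have := hx a (Set.mem_singleton a)
      exact this
    have htop : zpowers (⟨a, ha⟩ : B) = ⊤ :=
      zpowers_eq_top_of_prime_card hB (fun h => ha1 (by simpa using congrArg Subtype.val h))
    have hmem : (⟨b, hb⟩ : B) ∈ zpowers (⟨a, ha⟩ : B) := by rw [htop]; trivial
    obtain ⟨k, hk⟩ := Subgroup.mem_zpowers_iff.mp hmem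
    have hk' : a ^ k = b := by simpa using congrArg Subtype.val hk
    rw [← hk']
    have hc : Commute a x := hx'
    exact (hc.zpow_left k).eq

/-- The kill of `(NC)` from its pieces. -/
theorem kill [Finite G] (h1 : StMstar G) (h2 : StSylP G) (h3 : StComm G) (h4 : StTStruct G)
    (h5 : StCyc G) (h6 : StFus G) (h7 : StNorm G) (h8 : StNotDer G) : StKill G := by
  intro hG M E A P r p _ hNC
  obtain ⟨Ms, hMs, hEMs, hrβ, hpβ, hex, hN⟩ := h1 hG M E A P r p hNC
  obtain ⟨S, hSMs', hA0S, hPS⟩ := h2 hG M E A P r p hNC Ms hMs hEMs hpβ hex hN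
  have hSMs : (S : Subgroup G) ≤ Ms := hSMs'.trans (Subgroup.commutator_le_self Ms)
  have hNS := hN S hSMs
  have hcomm : ∀ n ∈ normalizer ((S : Subgroup G) : Set G), ∀ g ∈ P,
      ∃ c ∈ centralizer ((S : Subgroup G) : Set G), ∃ s ∈ (S : Subgroup G),
        g * n * g⁻¹ * n⁻¹ = c * s := by
    intro n hn g hg
    apply h3 hG Ms r hMs hrβ S hSMs'
    refine ⟨?_, ?_⟩
    · exact Subgroup.commutator_mem_commutator (hEMs (hNC.PE hg)) (hNS hn)
    · exact Subgroup.mul_mem _ (Subgroup.mul_mem _ (Subgroup.mul_mem _ (hPS hg) hn)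
        (Subgroup.inv_mem _ (hPS hg))) (Subgroup.inv_mem _ hn)
  obtain ⟨A', hconj, hA'el, hA'card, hA0A', hA'S, hTc, hΩ⟩ := h4 hG M E A P r p hNC S hA0S
  have hcyc := h5 hG M E A P r p hNC S hA0S hPS A' hconj hA0A' hA'S hTc hΩ
  have hfus := h6 hG M E A P r p hNC S hA0S hPS hcyc hcomm
  have hcard : Nat.card (A0 M A) = r :=
    (Cfsg.Agent.S1419.result hG M hNC.coatom E hNC.compl r hNC.tau2 hNC.nonab A
      ⟨hNC.AE, hNC.Ael, hNC.Acard⟩).2.1.1
  have hr : r.Prime := Fact.out
  obtain ⟨a, haA0, ha1⟩ : ∃ a ∈ A0 M A, a ≠ 1 := by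
    by_contra hcon
    have hbot : A0 M A = ⊥ := (Subgroup.eq_bot_iff_forall _).mpr
      (fun x hx => by_contra fun hx1 => hcon ⟨x, hx, hx1⟩)
    rw [hbot, Subgroup.card_bot] at hcard
    exact hr.one_lt.ne hcard
  have hcent := centralizer_eq_of_card_prime hcard haA0 ha1
  have hder : a ∈ ⁅(S : Subgroup G), (S : Subgroup G)⁆ :=
    h7 hG r S a (hA0S haA0) (fun n hn => hfus n hn a haA0)
  rw [hcent] at hTc hΩ
  exact h8 hG r S a A' (hNC.nonab S) (hA0A' haA0) hA'S hA'el hA'card hTc hΩ hder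

end Cfsg.Agent.H76.NCKill
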