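import Mathlib
import Cfsg.Agent.H76.NCKillMain
import Cfsg.Agent.H76.NCKMstar
import Cfsg.Agent.H57.NCKSylP
import Cfsg.Agent.H47.NCKComm
import Cfsg.Agent.H29.NCKTStruct
import Cfsg.Agent.H29.NCKCyc
import Cfsg.Agent.Lib.Helper30.NCKFus
import Cfsg.Agent.Lib.Helper30.NCKNorm
import Cfsg.Agent.H57.NCKRk2
import Cfsg.Agent.H47.NCKNotDer

set_option autoImplicit false

/-!
# The kill of configuration (NC), unconditional (helper76, with helpers 29, 30, 47, 57)
-/

namespace Cfsg.Agent.H76.NCKill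

open Cfsg Subgroup

universe u

/-- The configuration `(NC)` (with `(Z)`) does not occur in a minimal simple group of odd
order. -/
theorem killThm {G : Type u} [Group G] [Finite G] : StKill G :=
  kill mstar Cfsg.Agent.H57.NCKill.sylP Cfsg.Agent.H47.NCKill.comm
    Cfsg.Agent.H29.NCKill.tStruct Cfsg.Agent.H29.NCKill.cyc
    Cfsg.Agent.Lib.Helper30.NCK.fus Cfsg.Agent.Lib.Helper30.NCK.norm
    (Cfsg.Agent.H47.NCKill.notDer Cfsg.Agent.H57.NCKill.rk2)

end Cfsg.Agent.H76.NCKill
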