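import Mathlib
import Cfsg.Agent.H76.NCZDefs
import Cfsg.Agent.S1418
import Cfsg.Agent.S1419
import Cfsg.Agent.S1428

set_option autoImplicit false

/-!
# S1353: assembly of the configuration kill from its cases (helper76)
-/

namespace Cfsg.Agent.H76.NCKill

open Cfsg Subgroup

universe u

variable {G : Type u} [Group G] [Finite G]

/-- Case 3 from its two pieces. -/
theorem case3 (h1 : StC3Syl G) (h2 : StC3End G) : StCase3 G := by
  intro hG M E A P R r p _ hC hPA hex
  obtain ⟨S, hSc, hAS, hSC, hPS, hΩ⟩ := h1 hG M E A P R r p hC hPA hex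
  exact h2 hG M E A P R r p hC hPA S hSc hAS hSC hPS hΩ

/-- Case 4 is `(NC)`: `(Z)` and the kill. -/
theorem case4 (hZ : StZ G) (hK : StKill G) : StCase4 G := by
  intro hG M E A P R r p _ hC hPA hnonab
  have hr : r.Prime := Fact.out
  have h19 := Cfsg.Agent.S1419.result hG M hC.coatom E hC.compl r hC.tau2 hnonab A
    ⟨hC.AE, hC.Ael, hC.Acard⟩
  have hRE : R ≤ E := hC.RA.trans hC.AE
  have hRP : R ≤ centralizer (P : Set G) := by
    intro x hx
    rw [Subgroup.mem_centralizer_iff]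
    intro y hy
    have := (Subgroup.mem_centralizer_iff.mp (hC.PR hy)) x hx
    exact this.symm
  have h28 := Cfsg.Agent.S1428.result hG M hC.coatom E hC.compl p hC.tau1 P hC.PE hC.Pcard R
    (le_inf hRE hRP) (by rw [hC.Rcard]; exact hr)
  have hRA0 : R = A0 M A := by
    by_contra hne
    have hbot := (h19.2.2 R hRE hC.Rcard hne).1
    apply hC.Kstar
    rw [eq_bot_iff, ← hbot]
    exact h28
  have hPA0 : P ≤ centralizer ((A0 M A : Subgroup G) : Set G) := hRA0 ▸ hC.PR
  have hNC0 : NC0 M E A P r p :=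
    { coatom := hC.coatom, compl := hC.compl, tau2 := hC.tau2, nonab := hnonab, AE := hC.AE,
      Ael := hC.Ael, Acard := hC.Acard, PE := hC.PE, Pcard := hC.Pcard, tau1 := hC.tau1,
      PA0 := hPA0, PA := hPA, Kstar := hC.Kstar }
  have hz := hZ hG M E A P r p hNC0
  exact hK hG M E A P r p
    { coatom := hC.coatom, compl := hC.compl, tau2 := hC.tau2, nonab := hnonab, AE := hC.AE,
      Ael := hC.Ael, Acard := hC.Acard, PE := hC.PE, Pcard := hC.Pcard, tau1 := hC.tau1,
      PA0 := hPA0, PA := hPA, Kstar := hC.Kstar, Z := hz }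

/-- The configuration kill from the cases. -/
theorem cfg (hEx : StExA G) (h2 : StCase2 G) (h3 : StCase3 G) (h4 : StCase4 G) : StCfg G := by
  intro hG M E P R r p hM hE hp hPE hPc hK hr hRE hRc hPR
  haveI : Fact r.Prime := ⟨hr.1⟩
  obtain ⟨A, hAE, hAel, hAc⟩ := hEx hG M E r hM hE hr
  have h18 := Cfsg.Agent.S1418.result hG M hM E hE r hr A ⟨hAE, hAel, hAc⟩
  have hRA : R ≤ A := h18.1.2 R hRE hRc
  have hC : Cfg M E A P R r p := ⟨hM, hE, hr, hAE, hAel, hAc, hPE, hPc, hp, hK, hRA, hRc, hPR⟩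
  by_cases hPA : P ≤ centralizer (A : Set G)
  · exact h2 hG M E A P R r p hC hPA
  · by_cases hex : ∃ S : Sylow r G, IsMulCommutative (S : Subgroup G)
    · exact h3 hG M E A P R r p hC hPA hex
    · exact h4 hG M E A P R r p hC hPA (fun S hS => hex ⟨S, hS⟩)

end Cfsg.Agent.H76.NCKill
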