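import Mathlib

set_option autoImplicit false

namespace Cfsg.Agent.H76.SymFive

open Equiv

/-- A subgroup of order at least 60 of the symmetric group on five points is 2-transitive. -/
theorem two_trans_of_card_ge {Y : Type*} [Finite Y] (hY : Nat.card Y = 5)
    (L : Subgroup (Perm Y)) (hL : 60 ≤ Nat.card L) (u v u' v' : Y) (huv : u ≠ v)
    (hu'v' : u' ≠ v') : ∃ σ ∈ L, σ u = u' ∧ σ v = v' := by
  classical
  have : Fintype Y := Fintype.ofFinite Y
  have hYF : Fintype.card Y = 5 := by rw [← Nat.card_eq_fintype_card]; exact hY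
  have hcard : Nat.card (Perm Y) = 120 := by
    rw [Nat.card_eq_fintype_card, Fintype.card_perm, hYF]; rfl
  have hidx : L.index = 1 ∨ L.index = 2 := by
    have h1 := L.card_mul_index
    rw [hcard] at h1
    have h2 : L.index ≤ 2 := by
      by_contra h
      push Not at h
      nlinarith
    have h3 : L.index ≠ 0 := by
      intro h0
      rw [h0] at h1
      omega
    omega
  have hsq : ∀ σ : Perm Y, σ ^ 2 ∈ L := by
    intro σ
    rcases hidx with h | h
    · rw [Subgroup.index_eq_one] at h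
      rw [h]
      exact Subgroup.mem_top _
    · exact Subgroup.sq_mem_of_index_two h σ
  have h3c : ∀ a b c : Y, a ≠ b → a ≠ c → b ≠ c → swap a b * swap a c ∈ L := by
    intro a b c hab hac hbc
    have h3 := (Perm.isThreeCycle_swap_mul_swap_same hab hac hbc).orderOf
    have h4 : (swap a b * swap a c) ^ 3 = 1 := by
      rw [← h3]
      exact pow_orderOf_eq_one _
    have h5 : swap a b * swap a c = ((swap a b * swap a c) ^ 2) ^ 2 := by
      rw [← pow_mul, show 2 * 2 = 3 + 1 from rfl, pow_add, h4, one_mul, pow_one]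
    rw [h5]
    exact hsq _
  have hex : ∀ s : Finset Y, s.card ≤ 3 → ∃ w, w ∉ s := by
    intro s hs
    by_contra hcon
    push Not at hcon
    have hsub : (Finset.univ : Finset Y) ⊆ s := fun w _ => hcon w
    have := Finset.card_le_card hsub
    rw [Finset.card_univ, hYF] at this
    omega
  obtain ⟨σ₁, hσ₁L, hσ₁⟩ : ∃ σ₁ ∈ L, σ₁ u = u' := by
    by_cases h : u = u'
    · exact ⟨1, L.one_mem, by simpa using h⟩
    · obtain ⟨w, hw⟩ := hex {u, u'} (le_trans Finset.card_le_two (by norm_num))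
      have hw1 : w ≠ u := fun e => hw (by simp [e])
      have hw2 : w ≠ u' := fun e => hw (by simp [e])
      refine ⟨swap u w * swap u u', h3c u w u' (Ne.symm hw1) h hw2, ?_⟩
      rw [Perm.mul_apply, swap_apply_left, swap_apply_of_ne_of_ne (Ne.symm h) (Ne.symm hw2)]
  have hv₁ : σ₁ v ≠ u' := by
    intro e
    rw [← hσ₁] at e
    exact huv (σ₁.injective e).symm
  obtain ⟨σ₂, hσ₂L, hσ₂u, hσ₂v⟩ : ∃ σ₂ ∈ L, σ₂ u' = u' ∧ σ₂ (σ₁ v) = v' := by
    by_cases h : σ₁ v = v'
    · exact ⟨1, L.one_mem, rfl, by simpa using h⟩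
    · obtain ⟨w, hw⟩ := hex {u', σ₁ v, v'} (le_trans Finset.card_le_three (le_refl 3))
      have hw1 : w ≠ u' := fun e => hw (by simp [e])
      have hw2 : w ≠ σ₁ v := fun e => hw (by simp [e])
      have hw3 : w ≠ v' := fun e => hw (by simp [e])
      refine ⟨swap (σ₁ v) w * swap (σ₁ v) v', h3c (σ₁ v) w v' (Ne.symm hw2) h hw3, ?_, ?_⟩
      · rw [Perm.mul_apply, swap_apply_of_ne_of_ne (Ne.symm hv₁) hu'v',
          swap_apply_of_ne_of_ne (Ne.symm hv₁) (Ne.symm hw1)]
      · rw [Perm.mul_apply, swap_apply_left, swap_apply_of_ne_of_ne (Ne.symm h) (Ne.symm hw3)]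
  refine ⟨σ₂ * σ₁, L.mul_mem hσ₂L hσ₁L, ?_, ?_⟩
  · rw [Perm.mul_apply, hσ₁, hσ₂u]
  · rw [Perm.mul_apply, hσ₂v]

end Cfsg.Agent.H76.SymFive
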