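import Mathlib
import Cfsg.Agent.H76.AutSol
import Cfsg.Agent.H76.SymFive
import Cfsg.Agent.H76.ChevWarn

set_option autoImplicit false

namespace Cfsg.Agent.H76.QuadCore

open Cfsg.Agent.H76.AutSol

/-- The four-group, as a ring of characteristic two. -/
abbrev T2 := ZMod 2 × ZMod 2

theorem t2_two : (2 : T2) = 0 := by decide

/-- The functional on `T2` with kernel `{0, a}`. -/
def lam (a x : T2) : ZMod 2 := if x = 0 ∨ x = a then 0 else 1

theorem lam_add : ∀ a x y : T2, a ≠ 0 → lam a (x + y) = lam a x + lam a y := by decide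

theorem lam_zero (a : T2) : lam a 0 = 0 := by simp [lam]

theorem lam_eq_zero_iff (a x : T2) : lam a x = 0 ↔ x = 0 ∨ x = a := by
  unfold lam
  split_ifs with h
  · simp [h]
  · simp [h]

theorem lam_cases (a x : T2) : lam a x = 0 ∨ lam a x = 1 := by
  unfold lam
  split_ifs
  · left; rfl
  · right; rfl

theorem lam_ne : ∀ a b : T2, a ≠ 0 → b ≠ 0 → a ≠ b → lam b a = 1 := by decide

theorem exists_other : ∀ a : T2, a ≠ 0 → ∃ b : T2, b ≠ 0 ∧ a ≠ b := by decide

theorem zmod2_one_add_one : (1 : ZMod 2) + 1 = 0 := by decide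

variable {V : Type*} [Group V]

/-- A quadratic map into `T2` without nontrivial zeros on a group of exponent two. -/
structure QD (Q : V → T2) : Prop where
  exp : ∀ v : V, v * v = 1
  aniso : ∀ v, Q v = 0 → v = 1
  quad : ∀ u v w, Q (u * v * w) + Q (u * v) + Q (u * w) + Q (v * w) + Q u + Q v + Q w = 0

/-- The polarization. -/
def bet (Q : V → T2) (u v : V) : T2 := Q (u * v) + Q u + Q v

namespace QD

variable {Q : V → T2} (h : QD Q)
include h

theorem inv_eq (v : V) : v⁻¹ = v := inv_eq_of_mul_eq_one_right (h.exp v)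

theorem comm (u v : V) : u * v = v * u := by
  have h1 : (u * v)⁻¹ = u * v := h.inv_eq (u * v)
  rw [mul_inv_rev, h.inv_eq, h.inv_eq] at h1
  exact h1.symm

theorem Q_one : Q 1 = 0 := by
  have := h.quad 1 1 1
  simp only [mul_one] at this
  linear_combination this - 3 * Q 1 * t2_two

theorem Q_mul (u v : V) : Q (u * v) = Q u + Q v + bet Q u v := by
  unfold bet
  linear_combination (-(Q u + Q v)) * t2_two

theorem bet_mul_left (u v w : V) : bet Q (u * v) w = bet Q u w + bet Q v w := by
  unfold bet
  linear_combination h.quad u v w - (Q (u * w) + Q u + Q (v * w) + Q v + Q w) * t2_two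

theorem bet_comm (u v : V) : bet Q u v = bet Q v u := by
  unfold bet
  rw [h.comm u v]
  ring

theorem bet_mul_right (u v w : V) : bet Q u (v * w) = bet Q u v + bet Q u w := by
  rw [h.bet_comm, h.bet_mul_left, h.bet_comm v u, h.bet_comm w u]

theorem bet_self (u : V) : bet Q u u = 0 := by
  unfold bet
  rw [h.exp, h.Q_one]
  linear_combination Q u * t2_two

theorem bet_one (u : V) : bet Q u 1 = 0 := by
  unfold bet
  rw [mul_one, h.Q_one]
  linear_combination Q u * t2_two

theorem la_mul (a : T2) (ha : a ≠ 0) (u v : V) :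
    lam a (Q (u * v)) = lam a (Q u) + lam a (Q v) + lam a (bet Q u v) := by
  rw [h.Q_mul, lam_add _ _ _ ha, lam_add _ _ _ ha]

theorem lb_mul_right (a : T2) (ha : a ≠ 0) (u v w : V) :
    lam a (bet Q u (v * w)) = lam a (bet Q u v) + lam a (bet Q u w) := by
  rw [h.bet_mul_right, lam_add _ _ _ ha]

theorem lb_self (a : T2) (u : V) : lam a (bet Q u u) = 0 := by
  rw [h.bet_self, lam_zero]

theorem lb_one (a : T2) (u : V) : lam a (bet Q u 1) = 0 := by
  rw [h.bet_one, lam_zero]

end QD

section Count

variable [Fintype V] [DecidableEq V] {Q : V → T2}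

/-- The zero set of `lam a ∘ Q`. -/
def R (Q : V → T2) (a : T2) : Finset V := Finset.univ.filter (fun v => lam a (Q v) = 0)

theorem mem_R {a : T2} {v : V} : v ∈ R Q a ↔ lam a (Q v) = 0 := by
  simp [R]

theorem card_le_translate (A B : Finset V) (g : V) (hAB : ∀ x ∈ A, g * x ∈ B) :
    A.card ≤ B.card :=
  Finset.card_le_card_of_injOn (fun x => g * x) (fun x hx => hAB x hx)
    (fun x _ y _ hxy => mul_left_cancel hxy)

theorem lemmaA (h : QD Q) (a : T2) (ha : a ≠ 0) (w : V) (hw : lam a (Q w) = 1) :
    Fintype.card V ≤ 4 * (R Q a).card := by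
  set D : Finset V := Finset.univ.filter (fun x => lam a (bet Q w x) = 0) with hD
  have hDmem : ∀ x, x ∈ D ↔ lam a (bet Q w x) = 0 := fun x => by simp [hD]
  have h1 : Fintype.card V ≤ 2 * D.card := by
    by_cases hC : ∃ x₁, lam a (bet Q w x₁) = 1
    · obtain ⟨x₁, hx₁⟩ := hC
      have hle : (Dᶜ).card ≤ D.card := by
        apply card_le_translate Dᶜ D x₁
        intro x hx
        rw [Finset.mem_compl, hDmem] at hx
        have hx1 : lam a (bet Q w x) = 1 := (lam_cases a _).resolve_left hx
        rw [hDmem, h.lb_mul_right a ha, hx₁, hx1]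
        exact zmod2_one_add_one
      have := Finset.card_add_card_compl D
      omega
    · push Not at hC
      have hDu : D = Finset.univ := by
        ext x
        simp only [Finset.mem_univ, iff_true]
        rw [hDmem]
        exact (lam_cases a _).resolve_right (hC x)
      rw [hDu, Finset.card_univ]
      omega
  have h2 : D.card ≤ 2 * (R Q a).card := by
    have hle : (D \ R Q a).card ≤ (D ∩ R Q a).card := by
      apply card_le_translate _ _ w
      intro x hx
      rw [Finset.mem_sdiff, hDmem, mem_R] at hx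
      have hx1 : lam a (Q x) = 1 := (lam_cases a _).resolve_left hx.2
      rw [Finset.mem_inter, hDmem, mem_R, h.lb_mul_right a ha, h.lb_self, hx.1,
        h.la_mul a ha, hw, hx1, hx.1]
      exact ⟨by decide, by decide⟩
    have h3 := Finset.card_sdiff_add_card_inter D (R Q a)
    have h4 : (D ∩ R Q a).card ≤ (R Q a).card := Finset.card_le_card Finset.inter_subset_right
    omega
  omega

theorem lemmaB (h : QD Q) (a : T2) (ha : a ≠ 0) (w : V) (hw1 : w ≠ 1) (hw : lam a (Q w) = 0)
    (x₀ : V) (hx₀ : lam a (bet Q w x₀) = 1) : Fintype.card V + 8 ≤ 4 * (R Q a).card := by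
  set D : Finset V := Finset.univ.filter (fun x => lam a (bet Q w x) = 1) with hD
  have hDmem : ∀ x, x ∈ D ↔ lam a (bet Q w x) = 1 := fun x => by simp [hD]
  have h1 : Fintype.card V ≤ 2 * D.card := by
    have hle : (Dᶜ).card ≤ D.card := by
      apply card_le_translate Dᶜ D x₀
      intro x hx
      rw [Finset.mem_compl, hDmem] at hx
      have hx1 : lam a (bet Q w x) = 0 := (lam_cases a _).resolve_right hx
      rw [hDmem, h.lb_mul_right a ha, hx₀, hx1]
      decide
    have := Finset.card_add_card_compl D
    omega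
  have hle : (D \ R Q a).card ≤ (D ∩ R Q a).card := by
    apply card_le_translate _ _ w
    intro x hx
    rw [Finset.mem_sdiff, hDmem, mem_R] at hx
    have hx1 : lam a (Q x) = 1 := (lam_cases a _).resolve_left hx.2
    rw [Finset.mem_inter, hDmem, mem_R, h.lb_mul_right a ha, h.lb_self, hx.1,
      h.la_mul a ha, hw, hx1, hx.1]
    exact ⟨by decide, by decide⟩
  have h3 := Finset.card_sdiff_add_card_inter D (R Q a)
  have h4 : (D ∩ R Q a).card + 2 ≤ (R Q a).card := by
    have hsub : (D ∩ R Q a) ∪ {1, w} ⊆ R Q a := by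
      intro x hx
      rw [Finset.mem_union] at hx
      rcases hx with hx | hx
      · exact (Finset.mem_inter.mp hx).2
      · rw [Finset.mem_insert, Finset.mem_singleton] at hx
        rcases hx with rfl | rfl
        · rw [mem_R, h.Q_one, lam_zero]
        · exact mem_R.mpr hw
    have hdisj : Disjoint (D ∩ R Q a) {1, w} := by
      rw [Finset.disjoint_left]
      intro x hx hx'
      have hxD := (hDmem x).mp (Finset.mem_inter.mp hx).1
      rw [Finset.mem_insert, Finset.mem_singleton] at hx'
      rcases hx' with rfl | rfl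
      · rw [h.lb_one] at hxD
        exact absurd hxD (by decide)
      · rw [h.lb_self] at hxD
        exact absurd hxD (by decide)
    have h5 := Finset.card_le_card hsub
    rw [Finset.card_union_of_disjoint hdisj, Finset.card_pair (Ne.symm hw1)] at h5
    exact h5
  omega

/-- Every class is large. -/
theorem card_lower (h : QD Q) (hV : 5 ≤ Fintype.card V) (a : T2) (ha : a ≠ 0) :
    Fintype.card V ≤ 4 * (R Q a).card := by
  by_cases hex : ∃ w, lam a (Q w) = 1
  · obtain ⟨w, hw⟩ := hex
    exact lemmaA h a ha w hw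
  · exfalso
    push Not at hex
    have hall : ∀ v : V, Q v = 0 ∨ Q v = a := fun v =>
      (lam_eq_zero_iff a _).mp ((lam_cases a _).resolve_right (hex v))
    obtain ⟨b, hb, hab⟩ := exists_other a ha
    obtain ⟨w, hw1⟩ : ∃ w : V, w ≠ 1 := by
      by_contra hcon
      push Not at hcon
      have : Fintype.card V ≤ 1 := Fintype.card_le_one_iff.mpr (fun x y => by rw [hcon x, hcon y])
      omega
    have hQw : Q w = a := (hall w).resolve_left (fun h0 => hw1 (h.aniso w h0))
    have hlw : lam b (Q w) = 1 := by rw [hQw]; exact lam_ne a b ha hb hab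
    have h1 := lemmaA h b hb w hlw
    have h2 : (R Q b).card ≤ 1 := by
      have hsub : R Q b ⊆ {1} := by
        intro v hv
        rw [Finset.mem_singleton]
        rw [mem_R, lam_eq_zero_iff] at hv
        rcases hv with hv | hv
        · exact h.aniso v hv
        · rcases hall v with h0 | h0
          · exact h.aniso v h0
          · exact absurd (h0.symm.trans hv) hab
      exact le_trans (Finset.card_le_card hsub) (by simp)
    omega

end Count

end Cfsg.Agent.H76.QuadCore
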