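import Mathlib
import Cfsg.Agent.H76.QuadCore

set_option autoImplicit false

namespace Cfsg.Agent.H76.QuadCore

open Cfsg.Agent.H76.AutSol

section

variable {V : Type*} [Group V] [Fintype V] [DecidableEq V] {Q : V → T2}

/-- The class of `a`. -/
def S (Q : V → T2) (a : T2) : Finset V := (Finset.univ.erase (1 : V)).filter (fun v => Q v = a)

theorem mem_S {a : T2} {v : V} : v ∈ S Q a ↔ v ≠ 1 ∧ Q v = a := by
  simp [S]

theorem R_eq (h : QD Q) (a : T2) (ha : a ≠ 0) : R Q a = insert 1 (S Q a) := by
  ext v
  rw [mem_R, lam_eq_zero_iff, Finset.mem_insert, mem_S]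
  constructor
  · rintro (h0 | h0)
    · left; exact h.aniso v h0
    · right; exact ⟨fun hv => ha (by rw [← h0, hv, h.Q_one]), h0⟩
  · rintro (rfl | ⟨_, h0⟩)
    · left; exact h.Q_one
    · right; exact h0

theorem card_R (h : QD Q) (a : T2) (ha : a ≠ 0) : (R Q a).card = (S Q a).card + 1 := by
  rw [R_eq h a ha, Finset.card_insert_of_notMem]
  intro h1
  exact (mem_S.mp h1).1 rfl

theorem sum_S (h : QD Q) :
    (S Q (1, 0)).card + (S Q (0, 1)).card + (S Q (1, 1)).card + 1 = Fintype.card V := by
  have h1 : (Finset.univ.erase (1 : V)).card =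
      ∑ a ∈ (Finset.univ.erase (0 : T2)), (S Q a).card :=
    Finset.card_eq_sum_card_fiberwise (fun v hv => by
      rw [Finset.mem_coe, Finset.mem_erase] at hv
      rw [Finset.mem_coe, Finset.mem_erase]
      exact ⟨fun h0 => hv.1 (h.aniso v h0), Finset.mem_univ _⟩)
  have h2 : (Finset.univ.erase (0 : T2)) = {(1, 0), (0, 1), (1, 1)} := by decide
  rw [h2, Finset.sum_insert (by decide), Finset.sum_insert (by decide), Finset.sum_singleton] at h1
  have h3 : (Finset.univ.erase (1 : V)).card = Fintype.card V - 1 := by
    rw [Finset.card_erase_of_mem (Finset.mem_univ _), Finset.card_univ]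
  have h4 : 0 < Fintype.card V := Fintype.card_pos
  omega

end

/-- **Core lemma.** A group preserving an anisotropic quadratic map from an elementary abelian
2-group of order at most 16 to the four-group acts through a solvable group. -/
theorem core {V : Type*} [Group V] [Finite V] (Q : V → T2) (h : QD Q) (hcard : Nat.card V ≤ 16)
    {ℬ : Type*} [Group ℬ] (c : ℬ →* MulAut V) (hinv : ∀ b v, Q (c b v) = Q v) : Sol c := by
  classical
  have : Fintype V := Fintype.ofFinite V
  by_cases h4 : Nat.card V ≤ 4
  · exact sol_of_card_le_four c h4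
  obtain ⟨n, χ, hn, -, -⟩ :=
    Cfsg.Agent.H76.exists_functionals V (fun a => by rw [pow_two]; exact h.exp a)
  have hcF : Fintype.card V = 2 ^ n := by rw [← Nat.card_eq_fintype_card]; exact hn
  rw [Nat.card_eq_fintype_card] at hcard h4
  have hn4 : n ≤ 4 := by
    by_contra hlt
    push Not at hlt
    have : 2 ^ 5 ≤ 2 ^ n := Nat.pow_le_pow_right (by norm_num) hlt
    omega
  have hn3 : 3 ≤ n := by
    by_contra hlt
    push Not at hlt
    have : 2 ^ n ≤ 2 ^ 2 := Nat.pow_le_pow_right (by norm_num) (by omega)
    omega
  have hV5 : 5 ≤ Fintype.card V := by omega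
  have hsum := sum_S h
  have hlow : ∀ a : T2, a ≠ 0 → Fintype.card V ≤ 4 * ((S Q a).card + 1) := fun a ha => by
    rw [← card_R h a ha]; exact card_lower h hV5 a ha
  have hSinv : ∀ (a : T2) (b : ℬ) (v : V), v ∈ S Q a → c b v ∈ S Q a := by
    intro a b v hv
    rw [mem_S] at hv ⊢
    refine ⟨fun h1 => hv.1 ?_, by rw [hinv]; exact hv.2⟩
    exact (map_eq_one_iff (c b) (c b).injective).mp h1
  have hnorm : ∀ U : Subgroup V, U.Normal := fun U => ⟨fun n hn g => by
    rw [h.comm g n, mul_inv_cancel_right]; exact hn⟩
  have hfin : ∀ U : Subgroup V, (∀ b, ∀ v ∈ U, c b v ∈ U) → Nat.card U ≤ 4 →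
      Fintype.card V ≤ 4 * Nat.card U → Sol c := by
    intro U hU h1 h2
    have := hnorm U
    apply sol_of_res_quot c U hU (sol_of_card_le_four _ h1)
    apply sol_of_card_le_four
    have h3 := U.card_mul_index
    rw [Nat.card_eq_fintype_card (α := V)] at h3
    have h5 : Nat.card (V ⧸ U) = U.index := rfl
    rw [h5]
    have h6 : 0 < Nat.card U := Nat.card_pos
    have h7 : Nat.card U * U.index ≤ Nat.card U * 4 := by rw [h3]; omega
    exact Nat.le_of_mul_le_mul_left h7 h6
  rcases (show n = 3 ∨ n = 4 by omega) with rfl | rfl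
  · -- `|V| = 8`
    have h8 : Fintype.card V = 8 := by rw [hcF]; rfl
    obtain ⟨a, ha, hs2⟩ : ∃ a : T2, a ≠ 0 ∧ (S Q a).card ≤ 2 := by
      by_contra hcon
      push Not at hcon
      have e1 := hcon (1, 0) (by decide)
      have e2 := hcon (0, 1) (by decide)
      have e3 := hcon (1, 1) (by decide)
      omega
    have hs1 : 1 ≤ (S Q a).card := by have := hlow a ha; omega
    obtain ⟨w, hw1, hwfix⟩ : ∃ w : V, w ≠ 1 ∧ ∀ b, c b w = w := by
      rcases (show (S Q a).card = 1 ∨ (S Q a).card = 2 by omega) with h1 | h2
      · obtain ⟨u, hu⟩ := Finset.card_eq_one.mp h1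
        have huS : u ∈ S Q a := by rw [hu]; exact Finset.mem_singleton_self u
        refine ⟨u, (mem_S.mp huS).1, fun b => ?_⟩
        have := hSinv a b u huS
        rw [hu, Finset.mem_singleton] at this
        exact this
      · obtain ⟨u, v, huv, hS⟩ := Finset.card_eq_two.mp h2
        have huS : u ∈ S Q a := by rw [hS]; simp
        have hvS : v ∈ S Q a := by rw [hS]; simp
        refine ⟨u * v, fun e => huv ?_, fun b => ?_⟩
        · have : u = v⁻¹ := eq_inv_of_mul_eq_one_left e
          rw [this, h.inv_eq]
        · have h1 := hSinv a b u huS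
          have h2 := hSinv a b v hvS
          rw [hS, Finset.mem_insert, Finset.mem_singleton] at h1 h2
          have hne : c b u ≠ c b v := fun e => huv ((c b).injective e)
          rw [map_mul]
          rcases h1 with h1 | h1 <;> rcases h2 with h2 | h2
          · exact absurd (h1.trans h2.symm) hne
          · rw [h1, h2]
          · rw [h1, h2, h.comm]
          · exact absurd (h1.trans h2.symm) hne
    have hz : Nat.card (Subgroup.zpowers w) = 2 := by
      rw [Nat.card_zpowers]
      exact orderOf_eq_prime (by rw [pow_two]; exact h.exp w) hw1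
    apply hfin (Subgroup.zpowers w)
    · intro b v hv
      obtain ⟨k, rfl⟩ := Subgroup.mem_zpowers_iff.mp hv
      rw [map_zpow, hwfix b]
      exact Subgroup.zpow_mem _ (Subgroup.mem_zpowers w) k
    · omega
    · omega
  · -- `|V| = 16`
    have h16 : Fintype.card V = 16 := by rw [hcF]; rfl
    by_cases hsmall : ∃ a : T2, a ≠ 0 ∧ (S Q a).card ≤ 4
    · obtain ⟨a, ha, hs4⟩ := hsmall
      have hs3 : 3 ≤ (S Q a).card := by have := hlow a ha; omega
      have hzero : ∀ w ∈ S Q a, ∀ x, lam a (bet Q w x) = 0 := by
        intro w hw x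
        by_contra hx
        have hx1 := (lam_cases a _).resolve_left hx
        have hwR : lam a (Q w) = 0 := by
          rw [(mem_S.mp hw).2]; exact (lam_eq_zero_iff a a).mpr (Or.inr rfl)
        have := lemmaB h a ha w (mem_S.mp hw).1 hwR x hx1
        rw [card_R h a ha] at this
        omega
      let U : Subgroup V :=
        { carrier := {v | lam a (Q v) = 0}
          one_mem' := by show lam a (Q 1) = 0; rw [h.Q_one, lam_zero]
          mul_mem' := by
            intro u v hu hv
            have hu' : lam a (Q u) = 0 := hu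
            have hv' : lam a (Q v) = 0 := hv
            show lam a (Q (u * v)) = 0
            rw [h.la_mul a ha, hu', hv']
            by_cases hu1 : u = 1
            · rw [hu1, h.bet_comm, h.bet_one, lam_zero]; decide
            · have huS : u ∈ S Q a := by
                rw [mem_S]
                refine ⟨hu1, ?_⟩
                rcases (lam_eq_zero_iff a _).mp hu' with h0 | h0
                · exact absurd (h.aniso u h0) hu1
                · exact h0
              rw [hzero u huS v]; decide
          inv_mem' := by
            intro v hv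
            show lam a (Q v⁻¹) = 0
            rw [h.inv_eq]; exact hv }
      have hUcard : Nat.card U = (S Q a).card + 1 := by
        rw [← card_R h a ha]
        have e : (U : Set V) = ↑(R Q a) := by
          ext v
          rw [Finset.mem_coe, mem_R]
          rfl
        have e1 : Nat.card U = Nat.card ((U : Set V)) := rfl
        rw [e1, e, Nat.card_coe_set_eq, Set.ncard_coe_finset]
      have hdvd : Nat.card U ∣ 16 := by
        have := Subgroup.card_subgroup_dvd_card U
        rwa [Nat.card_eq_fintype_card (α := V), h16] at this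
      have hU4 : Nat.card U = 4 := by
        have h45 : Nat.card U = 4 ∨ Nat.card U = 5 := by omega
        rcases h45 with h45 | h45
        · exact h45
        · rw [h45] at hdvd; omega
      apply hfin U
      · intro b v hv
        show lam a (Q (c b v)) = 0
        rw [hinv]; exact hv
      · omega
      · omega
    · push Not at hsmall
      have e1 := hsmall (1, 0) (by decide)
      have e2 := hsmall (0, 1) (by decide)
      have e3 := hsmall (1, 1) (by decide)
      have hfive : ∀ a : T2, a ≠ 0 → (S Q a).card = 5 := by
        intro a ha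
        have h3 : a = (1, 0) ∨ a = (0, 1) ∨ a = (1, 1) := by
          revert a; decide
        rcases h3 with rfl | rfl | rfl <;> omega
      have hclass : ∀ a : T2, a ≠ 0 →
          Sol (permOn c {v | v ∈ S Q a} (fun b v hv => hSinv a b v hv)) := by
        intro a ha
        set π := permOn c {v | v ∈ S Q a} (fun b v hv => hSinv a b v hv) with hπ
        by_cases hlt : Nat.card π.range < 60
        · exact sol_of_isSolvable_range π
            (Cfsg.Agent.H97.Ord120.solvable_of_card_lt (Nat.card π.range) π.range rfl hlt)
        · exfalso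
          push Not at hlt
          have hY : Nat.card ↥{v | v ∈ S Q a} = 5 := by
            have e : {v | v ∈ S Q a} = (↑(S Q a) : Set V) := rfl
            rw [e, Nat.card_coe_set_eq, Set.ncard_coe_finset, hfive a ha]
          have htr := Cfsg.Agent.H76.SymFive.two_trans_of_card_ge hY π.range hlt
          let e := Finset.equivFinOfCardEq (hfive a ha)
          let y : Fin 5 → ↥{v | v ∈ S Q a} := fun i => ⟨(e.symm i : V), (e.symm i).2⟩
          have hyinj : Function.Injective y := by
            intro i j hij
            have h1 : (e.symm i : V) = (e.symm j : V) := congrArg Subtype.val hij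
            exact e.symm.injective (Subtype.ext h1)
          have hQy : ∀ i, Q (y i : V) = a := fun i => (mem_S.mp (y i).2).2
          have hpair : ∀ i j i' j' : Fin 5, i ≠ j → i' ≠ j' →
              Q ((y i : V) * (y j : V)) = Q ((y i' : V) * (y j' : V)) := by
            intro i j i' j' hij hij'
            obtain ⟨σ, ⟨b, rfl⟩, h1, h2⟩ := htr (y i) (y j) (y i') (y j')
              (fun e' => hij (hyinj e')) (fun e' => hij' (hyinj e'))
            have h1' : c b (y i : V) = (y i' : V) := congrArg Subtype.val h1
            have h2' : c b (y j : V) = (y j' : V) := congrArg Subtype.val h2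
            rw [← h1', ← h2', ← map_mul, hinv]
          have hb : ∀ i j : Fin 5, i ≠ j →
              bet Q (y i : V) (y j : V) = Q ((y 0 : V) * (y 1 : V)) := by
            intro i j hij
            unfold bet
            rw [hpair i j 0 1 hij (by decide), hQy, hQy]
            linear_combination a * t2_two
          have hprod : ∀ k : Fin 5, k ≠ 0 → k ≠ 1 → k ≠ 2 →
              Q ((y 0 : V) * (y 1 : V) * (y 2 : V) * (y k : V)) = 0 := by
            intro k k0 k1 k2
            rw [h.Q_mul, h.Q_mul ((y 0 : V) * (y 1 : V)) (y 2 : V), h.bet_mul_left,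
              h.bet_mul_left, h.bet_mul_left, hb 0 2 (by decide), hb 1 2 (by decide),
              hb 0 k (Ne.symm k0), hb 1 k (Ne.symm k1), hb 2 k (Ne.symm k2), hQy, hQy]
            linear_combination (3 * Q ((y 0 : V) * (y 1 : V)) + a) * t2_two
          have h3 := h.aniso _ (hprod 3 (by decide) (by decide) (by decide))
          have h4' := h.aniso _ (hprod 4 (by decide) (by decide) (by decide))
          have h5 : (y 3 : V) = (y 4 : V) := mul_left_cancel (h3.trans h4'.symm)
          exact absurd (hyinj (Subtype.ext h5)) (by decide)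
      apply sol_of_three c _ _ _ (hclass (1, 0) (by decide)) (hclass (0, 1) (by decide))
        (hclass (1, 1) (by decide))
      intro b h1 h2 h3
      ext v
      by_cases hv : v = 1
      · rw [hv, map_one]; rfl
      · have hQ0 : Q v ≠ 0 := fun h0 => hv (h.aniso v h0)
        have hcase : Q v = (1, 0) ∨ Q v = (0, 1) ∨ Q v = (1, 1) := by
          revert hQ0
          generalize Q v = t
          revert t
          decide
        rcases hcase with hc | hc | hc
        · have hvS : v ∈ S Q (1, 0) := mem_S.mpr ⟨hv, hc⟩
          exact congrArg (fun f : Equiv.Perm ↥{v | v ∈ S Q (1, 0)} =>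
            ((f ⟨v, hvS⟩ : ↥{v | v ∈ S Q (1, 0)}) : V)) h1
        · have hvS : v ∈ S Q (0, 1) := mem_S.mpr ⟨hv, hc⟩
          exact congrArg (fun f : Equiv.Perm ↥{v | v ∈ S Q (0, 1)} =>
            ((f ⟨v, hvS⟩ : ↥{v | v ∈ S Q (0, 1)}) : V)) h2
        · have hvS : v ∈ S Q (1, 1) := mem_S.mpr ⟨hv, hc⟩
          exact congrArg (fun f : Equiv.Perm ↥{v | v ∈ S Q (1, 1)} =>
            ((f ⟨v, hvS⟩ : ↥{v | v ∈ S Q (1, 1)}) : V)) h3

end Cfsg.Agent.H76.QuadCore
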