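import Mathlib
import Cfsg.Agent.H76.QuadMain
import Cfsg.Agent.H76.RankClassTwo
import Cfsg.Agent.H3.Critical

set_option autoImplicit false

namespace Cfsg.Agent.H76.ThreeInv

open Cfsg.Agent.H76.AutSol Cfsg.Agent.H76.QuadCore
open scoped commutatorElement

universe u

/-- The squaring endomorphism of a commutative group. -/
def sqHom (A : Type*) [Group A] (hc : ∀ a b : A, a * b = b * a) : A →* A where
  toFun a := a ^ 2
  map_one' := one_pow 2
  map_mul' a b := (show Commute a b from hc a b).mul_pow 2

theorem card_le_of_subset_finset {G : Type*} [Group G] (H : Subgroup G) (s : Finset G)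
    (h : ∀ x ∈ H, x ∈ s) : Nat.card H ≤ s.card := by
  have h1 : Nat.card H = Nat.card ((H : Set G)) := rfl
  rw [h1, Nat.card_coe_set_eq]
  calc (H : Set G).ncard ≤ (↑s : Set G).ncard :=
        Set.ncard_le_ncard (fun x hx => h x hx) (Finset.finite_toSet s)
    _ = s.card := Set.ncard_coe_finset s

/-- A finite abelian 2-group with at most four elements of order dividing 2 has a solvable
automorphism group. -/
theorem abelian_case : ∀ (n : ℕ) (A : Type u) [Group A] [Finite A], Nat.card A = n →
    (∀ a b : A, a * b = b * a) → IsPGroup 2 A → Nat.card {a : A // a ^ 2 = 1} ≤ 4 →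
    Group.IsSolvable (MulAut A) := by
  intro n
  induction n using Nat.strong_induction_on with
  | _ n ih =>
    intro A _ _ hn hc hA h4
    by_cases hsmall : Nat.card A ≤ 4
    · exact isSolvable_mulAut_of_card_le_four A hsmall
    let sq := sqHom A hc
    have hkermem : ∀ a : A, a ∈ sq.ker ↔ a ^ 2 = 1 := fun a => MonoidHom.mem_ker
    have hker : Nat.card sq.ker ≤ 4 := by
      have e : Nat.card sq.ker = Nat.card {a : A // a ^ 2 = 1} :=
        Nat.card_congr (Equiv.subtypeEquivRight hkermem)
      rw [e]; exact h4
    have hker2 : 2 ≤ Nat.card sq.ker := by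
      have hdvd : 2 ∣ Nat.card A := by
        obtain ⟨k, hk⟩ := (IsPGroup.iff_card).mp hA
        rw [hk]
        have hk0 : k ≠ 0 := by
          rintro rfl
          rw [hk] at hsmall
          norm_num at hsmall
        exact dvd_pow_self 2 hk0
      obtain ⟨x, hx⟩ := exists_prime_orderOf_dvd_card' 2 hdvd
      have hx2 : x ^ 2 = 1 := by rw [← hx]; exact pow_orderOf_eq_one x
      have hx1 : x ≠ 1 := by
        rintro rfl
        rw [orderOf_one] at hx
        norm_num at hx
      have hne : sq.ker ≠ ⊥ := by
        intro hbot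
        have : x ∈ sq.ker := (hkermem x).mpr hx2
        rw [hbot, Subgroup.mem_bot] at this
        exact hx1 this
      have := (Subgroup.one_lt_card_iff_ne_bot sq.ker).mpr hne
      omega
    have hNinv : ∀ a : MulAut A, ∀ m ∈ sq.range, (MonoidHom.id (MulAut A) a) m ∈ sq.range := by
      rintro a _ ⟨x, rfl⟩
      refine ⟨a x, ?_⟩
      show (a x) ^ 2 = a (x ^ 2)
      rw [map_pow]
    have hNn : sq.range.Normal := ⟨fun n hn g => by
      rw [hc g n, mul_inv_cancel_right]; exact hn⟩
    have hcard : Nat.card sq.range * Nat.card sq.ker = Nat.card A := by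
      rw [← Subgroup.index_ker sq, mul_comm]
      exact sq.ker.card_mul_index
    have hNpos : 0 < Nat.card sq.range := Nat.card_pos
    apply isSolvable_of_sol_id
    apply sol_of_res_quot (MonoidHom.id (MulAut A)) sq.range hNinv
    · apply sol_of_isSolvable
      have hlt : Nat.card sq.range < n := by
        rw [← hn, ← hcard]
        nlinarith
      refine ih (Nat.card sq.range) hlt ↥sq.range rfl (fun a b => Subtype.ext (hc a b))
        (hA.to_subgroup sq.range) ?_
      refine le_trans ?_ h4
      apply Nat.card_le_card_of_injective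
        (fun a : {a : ↥sq.range // a ^ 2 = 1} => (⟨(a.1 : A), by
          have := congrArg Subtype.val a.2
          simpa using this⟩ : {a : A // a ^ 2 = 1}))
      intro a b hab
      have h1 : ((a.1 : ↥sq.range) : A) = ((b.1 : ↥sq.range) : A) :=
        congrArg (fun t : {a : A // a ^ 2 = 1} => (t : A)) hab
      exact Subtype.ext (Subtype.ext h1)
    · apply sol_of_card_le_four
      have h5 : Nat.card (A ⧸ sq.range) = sq.range.index := rfl
      rw [h5]
      have h6 := sq.range.card_mul_index
      rw [← hcard] at h6
      have h7 : sq.range.index = Nat.card sq.ker := Nat.eq_of_mul_eq_mul_left hNpos h6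
      rw [h7]; exact hker

/-- The structural setup common to both cases. -/
theorem quot_exp {P : Type*} [Group P] (hsq : ∀ x : P, x ^ 2 ∈ Subgroup.center P)
    (q : P ⧸ Subgroup.center P) : q * q = 1 := by
  induction q using QuotientGroup.induction_on with
  | H x =>
    rw [← QuotientGroup.mk_mul, QuotientGroup.eq_one_iff, ← pow_two]
    exact hsq x

theorem quot_comm {P : Type*} [Group P] (hsq : ∀ x : P, x ^ 2 ∈ Subgroup.center P)
    (q r : P ⧸ Subgroup.center P) : q * r = r * q := by
  have hi : ∀ s : P ⧸ Subgroup.center P, s⁻¹ = s := fun s =>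
    inv_eq_of_mul_eq_one_right (quot_exp hsq s)
  have h1 := hi (q * r)
  rw [mul_inv_rev, hi, hi] at h1
  exact h1.symm

theorem comm_mem_center {P : Type*} [Group P] (hsq : ∀ x : P, x ^ 2 ∈ Subgroup.center P)
    (a b : P) : ⁅a, b⁆ ∈ Subgroup.center P := by
  rw [← QuotientGroup.eq_one_iff, commutatorElement_def]
  simp only [QuotientGroup.mk_mul, QuotientGroup.mk_inv]
  rw [quot_comm hsq (↑a) (↑b)]
  group

theorem center_inv {P : Type*} [Group P] (a : MulAut P) (z : P) (hz : z ∈ Subgroup.center P) :
    a z ∈ Subgroup.center P := by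
  rw [Subgroup.mem_center_iff]
  intro g
  have h1 := Subgroup.mem_center_iff.mp hz (a⁻¹ g)
  have h2 := congrArg a h1
  rw [map_mul, map_mul] at h2
  have h3 : a (a⁻¹ g) = g := by simp
  rw [h3] at h2
  exact h2

/-- A finite 2-group with at most three involutions and elementary abelian central quotient has
a solvable automorphism group. -/
theorem mainP {P : Type u} [Group P] [Finite P] (hP : IsPGroup 2 P)
    (h3 : Nat.card {x : P // orderOf x = 2} ≤ 3) (hsq : ∀ x : P, x ^ 2 ∈ Subgroup.center P) :
    Group.IsSolvable (MulAut P) := by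
  classical
  have : Fintype P := Fintype.ofFinite P
  have hZinv : ∀ a : MulAut P, ∀ z ∈ Subgroup.center P,
      (MonoidHom.id (MulAut P) a) z ∈ Subgroup.center P := fun a z hz => center_inv a z hz
  have hcomm : ∀ a b : P, ⁅a, b⁆ ∈ Subgroup.center P := comm_mem_center hsq
  have hZcomm : ∀ a b : ↥(Subgroup.center P), a * b = b * a := fun a b => Subtype.ext (by
    show (a : P) * b = b * a
    exact Subgroup.mem_center_iff.mp b.2 a)
  -- involutions
  let I : Finset P := Finset.univ.filter (fun x => orderOf x = 2)
  have hI : I.card ≤ 3 := by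
    have e : Nat.card {x : P // orderOf x = 2} = I.card := by
      rw [Nat.card_eq_fintype_card, Fintype.card_subtype]
    rw [← e]; exact h3
  have hImem : ∀ x, x ∈ I ↔ orderOf x = 2 := fun x => by simp [I]
  have hinvol : ∀ x : P, x ^ 2 = 1 → x ≠ 1 → orderOf x = 2 :=
    fun x hx hx1 => orderOf_eq_prime hx hx1
  -- squares of the centre
  let sq : ↥(Subgroup.center P) →* ↥(Subgroup.center P) := sqHom _ hZcomm
  let Z2 : Subgroup P := sq.range.map (Subgroup.center P).subtype
  have hZ2mem : ∀ y, y ∈ Z2 ↔ ∃ z ∈ Subgroup.center P, z ^ 2 = y := by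
    intro y
    constructor
    · rintro ⟨w, ⟨z, rfl⟩, rfl⟩
      exact ⟨z, z.2, rfl⟩
    · rintro ⟨z, hz, rfl⟩
      exact ⟨sq ⟨z, hz⟩, ⟨⟨z, hz⟩, rfl⟩, rfl⟩
  have hZ2le : Z2 ≤ Subgroup.center P := by
    intro y hy
    obtain ⟨z, hz, rfl⟩ := (hZ2mem y).mp hy
    exact Subgroup.pow_mem _ hz 2
  have hWsq : ∀ u ∈ Subgroup.center P, u ^ 2 ∈ Z2 := fun u hu => (hZ2mem _).mpr ⟨u, hu, rfl⟩
  have hcardZ : Nat.card Z2 * Nat.card sq.ker = Nat.card ↥(Subgroup.center P) := by
    have e1 : Nat.card Z2 = Nat.card sq.range :=
      Subgroup.card_map_of_injective (Subgroup.subtype_injective _)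
    rw [e1, ← Subgroup.index_ker sq, mul_comm]
    exact sq.ker.card_mul_index
  have hZ2pos : 0 < Nat.card Z2 := Nat.card_pos
  have hZpos : 0 < Nat.card ↥(Subgroup.center P) := Nat.card_pos
  -- the kernel of squaring, as a subgroup of `P`
  have hkercard : ∀ s : Finset P, (∀ x ∈ Subgroup.center P, x ^ 2 = 1 → x ∈ s) →
      Nat.card sq.ker ≤ s.card := by
    intro s hs
    have e1 : Nat.card (sq.ker.map (Subgroup.center P).subtype) = Nat.card sq.ker :=
      Subgroup.card_map_of_injective (Subgroup.subtype_injective _)
    rw [← e1]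
    apply card_le_of_subset_finset
    rintro _ ⟨z, hz, rfl⟩
    apply hs _ z.2
    have h1 : sq z = 1 := MonoidHom.mem_ker.mp hz
    have h2 := congrArg Subtype.val h1
    exact h2
  have hindex : Nat.card ↥(Subgroup.center P) * Nat.card (P ⧸ Subgroup.center P) = Nat.card P :=
    (Subgroup.center P).card_mul_index
  have hqn : ∀ U : Subgroup (P ⧸ Subgroup.center P), U.Normal := fun U => ⟨fun n hn g => by
    rw [quot_comm hsq g n, mul_inv_cancel_right]; exact hn⟩
  apply isSolvable_of_sol_id
  apply sol_of_res_quot (MonoidHom.id (MulAut P)) (Subgroup.center P) hZinv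
  · -- the action on the centre
    apply sol_of_isSolvable
    apply abelian_case _ ↥(Subgroup.center P) rfl hZcomm (hP.to_subgroup _)
    have hkermem : ∀ a : ↥(Subgroup.center P), a ∈ sq.ker ↔ a ^ 2 = 1 :=
      fun a => MonoidHom.mem_ker
    have e : Nat.card sq.ker = Nat.card {a : ↥(Subgroup.center P) // a ^ 2 = 1} :=
      Nat.card_congr (Equiv.subtypeEquivRight hkermem)
    rw [← e]
    refine le_trans (hkercard (insert 1 I) ?_) (le_trans (Finset.card_insert_le _ _) (by omega))
    intro x _ hx2
    by_cases hx1 : x = 1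
    · rw [hx1]; exact Finset.mem_insert_self _ _
    · exact Finset.mem_insert_of_mem ((hImem x).mpr (hinvol x hx2 hx1))
  · -- the action on the central quotient
    by_cases hb : ∃ t : P, orderOf t = 2 ∧ t ∉ Subgroup.center P
    · -- a non-central involution
      obtain ⟨t, ht2, htZ⟩ := hb
      have ht1 : t ≠ 1 := by
        rintro rfl
        exact htZ (Subgroup.one_mem _)
      have htt : t ^ 2 = 1 := by rw [← ht2]; exact pow_orderOf_eq_one t
      have hnt : Nontrivial P := ⟨⟨t, 1, ht1⟩⟩
      obtain ⟨z₀, -, hz₀, hz₀1⟩ :=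
        Cfsg.Agent.H3.normal_exists_central_order_p hP (⊤ : Subgroup P) top_ne_bot
      have hz₀Z : z₀ ∈ Subgroup.center P := hz₀.1
      have hz₀2 : z₀ ^ 2 = 1 := hz₀.2
      have hz₀c : ∀ g : P, g * z₀ = z₀ * g := fun g => Subgroup.mem_center_iff.mp hz₀Z g
      have htz2 : (t * z₀) ^ 2 = 1 := by
        rw [(show Commute t z₀ from hz₀c t).mul_pow, htt, hz₀2, one_mul]
      have htzZ : t * z₀ ∉ Subgroup.center P := by
        intro h
        apply htZ
        have : t = (t * z₀) * z₀⁻¹ := by group
        rw [this]
        exact Subgroup.mul_mem _ h (Subgroup.inv_mem _ hz₀Z)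
      have htz1 : t * z₀ ≠ 1 := fun h => htzZ (h ▸ Subgroup.one_mem _)
      have hIeq : ({z₀, t, t * z₀} : Finset P) = I := by
        apply Finset.eq_of_subset_of_card_le
        · intro x hx
          rw [Finset.mem_insert, Finset.mem_insert, Finset.mem_singleton] at hx
          rw [hImem]
          rcases hx with rfl | rfl | rfl
          · exact hinvol _ hz₀2 hz₀1
          · exact ht2
          · exact hinvol _ htz2 htz1
        · have h1 : z₀ ≠ t := fun h => htZ (h ▸ hz₀Z)
          have h2 : z₀ ≠ t * z₀ := fun h => htzZ (h ▸ hz₀Z)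
          have h3' : t ≠ t * z₀ := fun h => hz₀1 (by
            have := mul_left_cancel (a := t) (b := 1) (c := z₀) (by rw [mul_one]; exact h)
            exact this.symm)
          rw [Finset.card_insert_of_notMem (by simp [h1, h2]),
            Finset.card_insert_of_notMem (by simp [h3']), Finset.card_singleton]
          exact hI
      have hall : ∀ x : P, x ^ 2 = 1 → x = 1 ∨ x = z₀ ∨ x = t ∨ x = t * z₀ := by
        intro x hx
        by_cases hx1 : x = 1
        · left; exact hx1
        · right
          have := (hImem x).mpr (hinvol x hx hx1)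
          rw [← hIeq, Finset.mem_insert, Finset.mem_insert, Finset.mem_singleton] at this
          exact this
      have hk : Nat.card sq.ker ≤ 2 := by
        refine le_trans (hkercard {1, z₀} ?_) Finset.card_le_two
        intro x hxZ hx2
        rw [Finset.mem_insert, Finset.mem_singleton]
        rcases hall x hx2 with h | h | h | h
        · left; exact h
        · right; exact h
        · exact absurd (h ▸ hxZ) htZ
        · exact absurd (h ▸ hxZ) htzZ
      -- the subgroup `M`
      have hMcard := Cfsg.Agent.H76.card_comap_zpowers (Subgroup.center P) t htZ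
        (by rw [htt]; exact Subgroup.one_mem _)
      have hmk : ∀ a : P, (a ∈ Subgroup.center P ∨ t⁻¹ * a ∈ Subgroup.center P) →
          (QuotientGroup.mk a : P ⧸ Subgroup.center P) ∈
            Subgroup.zpowers (QuotientGroup.mk t : P ⧸ Subgroup.center P) := by
        rintro a (h | h)
        · rw [(QuotientGroup.eq_one_iff a).mpr h]
          exact Subgroup.one_mem _
        · have : (QuotientGroup.mk t : P ⧸ Subgroup.center P) = QuotientGroup.mk a :=
            QuotientGroup.eq.mpr h
          rw [← this]
          exact Subgroup.mem_zpowers _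
      have hM : ∀ a : P, a ^ 2 ∈ Z2 → a ∈ (Subgroup.zpowers
          (QuotientGroup.mk t : P ⧸ Subgroup.center P)).comap
            (QuotientGroup.mk' (Subgroup.center P)) := by
        intro a ha
        obtain ⟨w, hw, hw2⟩ := (hZ2mem _).mp ha
        have hwc : Commute a w⁻¹ :=
          (Subgroup.mem_center_iff.mp (Subgroup.inv_mem _ hw) a)
        have h1 : (a * w⁻¹) ^ 2 = 1 := by
          rw [hwc.mul_pow, ← hw2, inv_pow, mul_inv_cancel]
        rw [Subgroup.mem_comap]
        apply hmk
        rcases hall _ h1 with h | h | h | h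
        · left
          have : a = w := by rw [mul_inv_eq_one] at h; exact h
          rw [this]; exact hw
        · left
          have : a = z₀ * w := by rw [← h]; group
          rw [this]; exact Subgroup.mul_mem _ hz₀Z hw
        · right
          have : t⁻¹ * a = w := by rw [← h]; group
          rw [this]; exact hw
        · right
          have : t⁻¹ * a = z₀ * w := by
            have h' : a = t * z₀ * w := by rw [← h]; group
            rw [h']; group
          rw [this]; exact Subgroup.mul_mem _ hz₀Z hw
      have hbound := Cfsg.Agent.H76.card_mul_sq_le (Subgroup.center P) Z2 _ (le_refl _) hsq hcomm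
        hZ2le hWsq hM
      rw [hMcard] at hbound
      have hq8 : Nat.card (P ⧸ Subgroup.center P) ≤ 8 := by
        have e1 : Nat.card ↥(Subgroup.center P) ^ 2 = Nat.card Z2 ^ 2 * Nat.card sq.ker ^ 2 := by
          rw [← hcardZ]; ring
        have e2 : Nat.card sq.ker ^ 2 ≤ 4 := by
          calc Nat.card sq.ker ^ 2 ≤ 2 ^ 2 := Nat.pow_le_pow_left hk 2
            _ = 4 := by norm_num
        rw [e1] at hbound
        have e3 : Nat.card P * Nat.card Z2 ^ 2 ≤
            (8 * Nat.card ↥(Subgroup.center P)) * Nat.card Z2 ^ 2 := by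
          calc Nat.card P * Nat.card Z2 ^ 2
              ≤ 2 * Nat.card ↥(Subgroup.center P) * (Nat.card Z2 ^ 2 * Nat.card sq.ker ^ 2) :=
                hbound
            _ ≤ 2 * Nat.card ↥(Subgroup.center P) * (Nat.card Z2 ^ 2 * 4) :=
                Nat.mul_le_mul_left _ (Nat.mul_le_mul_left _ e2)
            _ = (8 * Nat.card ↥(Subgroup.center P)) * Nat.card Z2 ^ 2 := by ring
        have e4 : Nat.card P ≤ 8 * Nat.card ↥(Subgroup.center P) :=
          Nat.le_of_mul_le_mul_right e3 (by positivity)
        rw [← hindex] at e4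
        have e5 : Nat.card ↥(Subgroup.center P) * Nat.card (P ⧸ Subgroup.center P) ≤
            Nat.card ↥(Subgroup.center P) * 8 := by rw [mul_comm _ 8]; exact e4
        exact Nat.le_of_mul_le_mul_left e5 hZpos
      -- the invariant subgroup of order 2 of the quotient
      have hmt1 : (QuotientGroup.mk t : P ⧸ Subgroup.center P) ≠ 1 := fun h =>
        htZ ((QuotientGroup.eq_one_iff t).mp h)
      have hUcard : Nat.card (Subgroup.zpowers (QuotientGroup.mk t : P ⧸ Subgroup.center P))
          = 2 := by
        rw [Nat.card_zpowers]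
        exact orderOf_eq_prime (by rw [pow_two]; exact quot_exp hsq _) hmt1
      have hUn := hqn (Subgroup.zpowers (QuotientGroup.mk t : P ⧸ Subgroup.center P))
      apply sol_of_res_quot _ (Subgroup.zpowers (QuotientGroup.mk t : P ⧸ Subgroup.center P))
      · apply sol_of_card_le_four
        omega
      · apply sol_of_card_le_four
        have h5 : Nat.card ((P ⧸ Subgroup.center P) ⧸
            Subgroup.zpowers (QuotientGroup.mk t : P ⧸ Subgroup.center P)) =
            (Subgroup.zpowers (QuotientGroup.mk t : P ⧸ Subgroup.center P)).index := rfl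
        rw [h5]
        have h6 := (Subgroup.zpowers (QuotientGroup.mk t : P ⧸ Subgroup.center P)).card_mul_index
        rw [hUcard] at h6
        omega
      · intro a v hv
        obtain ⟨k, rfl⟩ := Subgroup.mem_zpowers_iff.mp hv
        rw [map_zpow, quotAut_mk]
        apply Subgroup.zpow_mem
        apply hmk
        have hat2 : orderOf (a t) = 2 := by rw [MulEquiv.orderOf_eq]; exact ht2
        have hatZ : a t ∉ Subgroup.center P := by
          intro h
          apply htZ
          have := center_inv a⁻¹ (a t) h
          rwa [MulAut.inv_apply_self] at this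
        have := (hImem (a t)).mpr hat2
        rw [← hIeq, Finset.mem_insert, Finset.mem_insert, Finset.mem_singleton] at this
        right
        rcases this with h | h | h
        · exact absurd (h ▸ hz₀Z) hatZ
        · show t⁻¹ * a t ∈ Subgroup.center P
          rw [h, inv_mul_cancel]; exact Subgroup.one_mem _
        · show t⁻¹ * a t ∈ Subgroup.center P
          rw [h, inv_mul_cancel_left]; exact hz₀Z
    · -- all involutions are central
      push Not at hb
      have hM : ∀ a : P, a ^ 2 ∈ Z2 → a ∈ Subgroup.center P := by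
        intro a ha
        obtain ⟨w, hw, hw2⟩ := (hZ2mem _).mp ha
        have hwc : Commute a w⁻¹ :=
          (Subgroup.mem_center_iff.mp (Subgroup.inv_mem _ hw) a)
        have h1 : (a * w⁻¹) ^ 2 = 1 := by
          rw [hwc.mul_pow, ← hw2, inv_pow, mul_inv_cancel]
        have h2 : a * w⁻¹ ∈ Subgroup.center P := by
          by_cases h : a * w⁻¹ = 1
          · rw [h]; exact Subgroup.one_mem _
          · exact hb _ (hinvol _ h1 h)
        have : a = (a * w⁻¹) * w := by group
        rw [this]
        exact Subgroup.mul_mem _ h2 hw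
      have hk : Nat.card sq.ker ≤ 4 := by
        refine le_trans (hkercard (insert 1 I) ?_) (le_trans (Finset.card_insert_le _ _) (by omega))
        intro x _ hx2
        by_cases hx1 : x = 1
        · rw [hx1]; exact Finset.mem_insert_self _ _
        · exact Finset.mem_insert_of_mem ((hImem x).mpr (hinvol x hx2 hx1))
      have hbound := Cfsg.Agent.H76.card_mul_sq_le (Subgroup.center P) Z2 (Subgroup.center P)
        (le_refl _) hsq hcomm hZ2le hWsq hM
      obtain ⟨n, χ, hn, hadd, hkerχ⟩ := Cfsg.Agent.H76.exists_functionals_rel (Subgroup.center P) Z2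
        hZ2le (fun u hu v _ => (Subgroup.mem_center_iff.mp hu v).symm) hWsq
      have hkn : Nat.card sq.ker = 2 ^ n := by
        have : Nat.card Z2 * Nat.card sq.ker = Nat.card Z2 * 2 ^ n := by
          rw [hcardZ, hn, mul_comm]
        exact Nat.eq_of_mul_eq_mul_left hZ2pos this
      have hqk : Nat.card (P ⧸ Subgroup.center P) ≤ Nat.card sq.ker ^ 2 := by
        have e1 : Nat.card ↥(Subgroup.center P) ^ 2 = Nat.card Z2 ^ 2 * Nat.card sq.ker ^ 2 := by
          rw [← hcardZ]; ring
        rw [e1] at hbound
        have e3 : Nat.card P * Nat.card Z2 ^ 2 ≤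
            (Nat.card ↥(Subgroup.center P) * Nat.card sq.ker ^ 2) * Nat.card Z2 ^ 2 := by
          calc Nat.card P * Nat.card Z2 ^ 2
              ≤ Nat.card ↥(Subgroup.center P) * (Nat.card Z2 ^ 2 * Nat.card sq.ker ^ 2) := hbound
            _ = (Nat.card ↥(Subgroup.center P) * Nat.card sq.ker ^ 2) * Nat.card Z2 ^ 2 := by ring
        have e4 : Nat.card P ≤ Nat.card ↥(Subgroup.center P) * Nat.card sq.ker ^ 2 :=
          Nat.le_of_mul_le_mul_right e3 (by positivity)
        rw [← hindex] at e4
        exact Nat.le_of_mul_le_mul_left e4 hZpos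
      have hn2 : n ≤ 2 := by
        by_contra hlt
        push Not at hlt
        have : 2 ^ 3 ≤ 2 ^ n := Nat.pow_le_pow_right (by norm_num) hlt
        omega
      by_cases hn1 : n ≤ 1
      · apply sol_of_card_le_four
        have : 2 ^ n ≤ 2 ^ 1 := Nat.pow_le_pow_right (by norm_num) hn1
        have e2 : Nat.card sq.ker ^ 2 ≤ 2 ^ 2 := Nat.pow_le_pow_left (by omega) 2
        omega
      · obtain rfl : n = 2 := by omega
        have hk4 : Nat.card sq.ker = 4 := by rw [hkn]; rfl
        have hq16 : Nat.card (P ⧸ Subgroup.center P) ≤ 16 := by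
          rw [hk4] at hqk; exact hqk
        have hχ2 : ∀ j, ∀ u ∈ Z2, χ j u = 0 := by
          intro j u hu
          obtain ⟨z, hz, rfl⟩ := (hZ2mem u).mp hu
          rw [pow_two, hadd j z hz z hz]
          exact CharTwo.add_self_eq_zero _
        have hq2 : ∀ j (x y : P), χ j ((x * y) ^ 2) = χ j (x ^ 2) + χ j (y ^ 2) + χ j ⁅y, x⁆ := by
          intro j x y
          rw [Cfsg.Agent.H76.sq_mul_of_central x y (hcomm y x),
            hadd j _ (Subgroup.mul_mem _ (hsq x) (hsq y)) _ (hcomm y x),
            hadd j _ (hsq x) _ (hsq y)]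
        have hcm : ∀ j (w x y : P), χ j ⁅w, x * y⁆ = χ j ⁅w, x⁆ + χ j ⁅w, y⁆ := by
          intro j w x y
          rw [Cfsg.Agent.H76.commutator_mul_right_of_central w x y (hcomm w y),
            hadd j _ (hcomm w x) _ (hcomm w y)]
        have hquadj : ∀ j (x y w : P), χ j ((x * y * w) ^ 2) + χ j ((x * y) ^ 2) +
            χ j ((x * w) ^ 2) + χ j ((y * w) ^ 2) + χ j (x ^ 2) + χ j (y ^ 2) + χ j (w ^ 2) = 0 := by
          intro j x y w
          have h2 : (2 : ZMod 2) = 0 := by decide
          rw [hq2 j (x * y) w, hq2 j x y, hq2 j x w, hq2 j y w, hcm j w x y]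
          linear_combination (2 * χ j (x ^ 2) + 2 * χ j (y ^ 2) + 2 * χ j (w ^ 2) + χ j ⁅y, x⁆ +
            χ j ⁅w, x⁆ + χ j ⁅w, y⁆) * h2
        -- the quadratic map on the quotient
        let Qt : P → T2 := fun x => (χ 0 (x ^ 2), χ 1 (x ^ 2))
        have hwell : ∀ a b : P, QuotientGroup.leftRel (Subgroup.center P) a b → Qt a = Qt b := by
          intro a b hab
          rw [QuotientGroup.leftRel_apply] at hab
          have hbz : b = a * (a⁻¹ * b) := by group
          have hc : Commute a (a⁻¹ * b) := (Subgroup.mem_center_iff.mp hab a)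
          have e : b ^ 2 = a ^ 2 * (a⁻¹ * b) ^ 2 := by
            conv_lhs => rw [hbz]
            exact hc.mul_pow 2
          have e2 : ∀ j, χ j (b ^ 2) = χ j (a ^ 2) := by
            intro j
            rw [e, hadd j _ (hsq a) _ (hsq _), hχ2 j _ (hWsq _ hab), add_zero]
          show (χ 0 (a ^ 2), χ 1 (a ^ 2)) = (χ 0 (b ^ 2), χ 1 (b ^ 2))
          rw [e2 0, e2 1]
        let Q : P ⧸ Subgroup.center P → T2 := fun q => Quotient.liftOn' q Qt hwell
        have hQmk : ∀ x : P, Q (QuotientGroup.mk x) = Qt x := fun x => rfl
        have hQD : QD Q := by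
          refine ⟨quot_exp hsq, ?_, ?_⟩
          · intro v
            induction v using QuotientGroup.induction_on with
            | H x =>
              intro h0
              rw [hQmk] at h0
              have h1 : χ 0 (x ^ 2) = 0 ∧ χ 1 (x ^ 2) = 0 := Prod.mk_eq_zero.mp h0
              have h2 : x ^ 2 ∈ Z2 := hkerχ _ (hsq x) (fun j => by
                fin_cases j
                · exact h1.1
                · exact h1.2)
              exact (QuotientGroup.eq_one_iff x).mpr (hM x h2)
          · intro u v w
            induction u using QuotientGroup.induction_on with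
            | H x =>
              induction v using QuotientGroup.induction_on with
              | H y =>
                induction w using QuotientGroup.induction_on with
                | H w =>
                  simp only [← QuotientGroup.mk_mul, hQmk]
                  exact Prod.ext (hquadj 0 x y w) (hquadj 1 x y w)
        -- the action on `Z / Z²`
        have hrinv : ∀ a : MulAut P, ∀ m ∈ sq.range,
            (resAut (MonoidHom.id (MulAut P)) (Subgroup.center P) hZinv a) m ∈ sq.range := by
          rintro a _ ⟨z, rfl⟩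
          refine ⟨resAut (MonoidHom.id (MulAut P)) (Subgroup.center P) hZinv a z, ?_⟩
          apply Subtype.ext
          show (a (z : P)) ^ 2 = a ((z : P) ^ 2)
          rw [map_pow]
        have hrn : sq.range.Normal := ⟨fun n hn g => by
          rw [hZcomm g n, mul_inv_cancel_right]; exact hn⟩
        have hcT : Sol (quotAut (resAut (MonoidHom.id (MulAut P)) (Subgroup.center P) hZinv)
            sq.range hrinv) := by
          apply sol_of_card_le_four
          have h5 : Nat.card (↥(Subgroup.center P) ⧸ sq.range) = sq.range.index := rfl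
          rw [h5]
          have h6 := sq.range.card_mul_index
          have h7 : Nat.card sq.range * Nat.card sq.ker = Nat.card ↥(Subgroup.center P) := by
            rw [← Subgroup.index_ker sq, mul_comm]
            exact sq.ker.card_mul_index
          rw [← h7] at h6
          have h8 : sq.range.index = Nat.card sq.ker := Nat.eq_of_mul_eq_mul_left Nat.card_pos h6
          rw [h8]; exact hk
        apply sol_of_ker _ _ hcT
        apply core Q hQD hq16
        intro b v
        induction v using QuotientGroup.induction_on with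
        | H x =>
          show Q (quotAut (MonoidHom.id (MulAut P)) (Subgroup.center P) hZinv (b : MulAut P)
            (QuotientGroup.mk x)) = Q (QuotientGroup.mk x)
          rw [quotAut_mk, hQmk, hQmk]
          have hb1 : quotAut (resAut (MonoidHom.id (MulAut P)) (Subgroup.center P) hZinv)
              sq.range hrinv (b : MulAut P) = 1 := MonoidHom.mem_ker.mp b.2
          have hkey : (x ^ 2)⁻¹ * (b : MulAut P) (x ^ 2) ∈ Z2 := by
            have h1 := congrArg (fun f : MulAut (↥(Subgroup.center P) ⧸ sq.range) =>
              f (QuotientGroup.mk ⟨x ^ 2, hsq x⟩)) hb1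
            simp only [quotAut_mk, MulAut.one_apply] at h1
            have h2 := QuotientGroup.eq.mp h1.symm
            obtain ⟨z, hz⟩ := h2
            have h3 := congrArg Subtype.val hz
            exact (hZ2mem _).mpr ⟨z, z.2, h3⟩
          have e2 : ∀ j, χ j (((b : MulAut P) x) ^ 2) = χ j (x ^ 2) := by
            intro j
            have e3 : ((b : MulAut P) x) ^ 2 = x ^ 2 * ((x ^ 2)⁻¹ * (b : MulAut P) (x ^ 2)) := by
              rw [mul_inv_cancel_left, map_pow]
            rw [e3, hadd j _ (hsq x) _ (hZ2le hkey), hχ2 j _ hkey, add_zero]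
          show (χ 0 (((b : MulAut P) x) ^ 2), χ 1 (((b : MulAut P) x) ^ 2)) =
            (χ 0 (x ^ 2), χ 1 (x ^ 2))
          rw [e2 0, e2 1]

/-- The automorphism group of a finite 2-group with at most three involutions is solvable. -/
theorem mulAut_isSolvable {X : Type u} [Group X] [Finite X] (h2 : IsPGroup 2 X)
    (h3 : Nat.card {x : X // orderOf x = 2} ≤ 3) : Group.IsSolvable (MulAut X) := by
  have : Fact (Nat.Prime 2) := ⟨Nat.prime_two⟩
  obtain ⟨H, K, hHchar, hKchar, hKH, hKC, hCK, hpow, hcomm⟩ :=
    Cfsg.Agent.H3.critical_subgroup_exists h2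
  have hHn : H.Normal := inferInstance
  have hHinv : ∀ a : MulAut X, ∀ h ∈ H, (MonoidHom.id (MulAut X) a) h ∈ H := by
    intro a h hh
    have h1 := hHchar.fixed a
    have h2' : h ∈ H.comap a.toMonoidHom := by rw [h1]; exact hh
    exact h2'
  apply isSolvable_of_sol_id
  apply sol_of_res_selfcentralizing (MonoidHom.id (MulAut X)) H hHinv (hCK.trans hKH)
  apply sol_of_isSolvable
  apply mainP (h2.to_subgroup H)
  · refine le_trans ?_ h3
    apply Nat.card_le_card_of_injective
      (fun a : {x : ↥H // orderOf x = 2} => (⟨(a.1 : X), by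
        rw [Subgroup.orderOf_coe]; exact a.2⟩ : {x : X // orderOf x = 2}))
    intro a b hab
    have h1 : ((a.1 : ↥H) : X) = ((b.1 : ↥H) : X) :=
      congrArg (fun t : {x : X // orderOf x = 2} => (t : X)) hab
    exact Subtype.ext (Subtype.ext h1)
  · intro x
    rw [Subgroup.mem_center_iff]
    intro g
    apply Subtype.ext
    show (g : X) * (x : X) ^ 2 = (x : X) ^ 2 * g
    have h1 : (x : X) ^ 2 ∈ Subgroup.centralizer (H : Set X) := hKC (hpow x x.2)
    exact Subgroup.mem_centralizer_iff.mp h1 g g.2

end Cfsg.Agent.H76.ThreeInv
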